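import Mathlib
import Cfsg.Agent.Lib.Fi22K3
import Cfsg.Agent.Lib.PcClass36
import Cfsg.Agent.Lib.Fi22J2.Data

/-!
# The centralizer of a product of two commuting transpositions of `Fi₂₂`: generators
-/

set_option autoImplicit false
set_option maxRecDepth 1000000
set_option linter.all false

namespace Cfsg.Agent.Lib.Fi22J2

open Cfsg.Agent.Lib.OutTree36 Cfsg.Agent.Lib.TcBits Cfsg.Agent.Lib.TcPres Cfsg.Agent.Lib.PresChain36
open Cfsg.Agent.Lib.TcFacts (sumRange)
open Cfsg.Agent.Lib.Fi22K Cfsg.Agent.Lib.PcClass36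
open Cfsg.Agent.TcData.Fi22.I3510 Cfsg.Agent.TcData.Fi22 Cfsg.Agent.TcChain36.Fi22 Cfsg.Agent.TcChain36.Out.Fi22

/-- The element of a word. -/
noncomputable def gv (w : List ℕ) : Gq := evL Lt0 w

theorem gv_nil : gv [] = 1 := rfl

theorem gv_append (u w : List ℕ) : gv (u ++ w) = gv u * gv w := evL_append Lt0 u w

theorem gv_cons (i : ℕ) (w : List ℕ) : gv (i :: w) = Lt0 i * gv w := evL_cons Lt0 i w

theorem hwa2 (w : List ℕ) (X i : ℕ) : (wa w X).testBit i = X.testBit (Phi (gv w) i) := hwa w X i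

theorem Lt_eq {a : ℕ} (h : a < 9) : Lt a = Lt0 a := by
  have e : defsL.getD a [] = [a] := by interval_cases a <;> rfl
  show evL Lt0 (defsL.getD a []) = _
  rw [e, evL_cons, evL_nil, mul_one]

/-- Words in the letters only. -/
def letters (w : List ℕ) : Bool := w.all fun a => Nat.blt a 9

theorem evL_Lt_eq : ∀ {w : List ℕ}, letters w = true → evL Lt w = gv w
  | [], _ => rfl
  | a :: w, h => by
    have h' : Nat.blt a 9 = true ∧ letters w = true := by
      simpa [letters] using h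
    rw [evL_cons, gv_cons, Lt_eq (blt_true h'.1), evL_Lt_eq h'.2]

theorem fix_of_wa {w : List ℕ} {p : ℕ} (h : wa w (2 ^ p) = 2 ^ p) : Phi (gv w) p = p := by
  have h1 := hwa2 w (2 ^ p) p
  rw [h, Nat.testBit_two_pow_self, Nat.testBit_two_pow] at h1
  exact (of_decide_eq_true h1.symm).symm

/-- Equality of words from the base. -/
theorem gv_eq_of {u v : List ℕ} (hu : letters u = true) (hv : letters v = true) (h : eqB ap bsL u v = true) : gv u = gv v := by
  rw [← evL_Lt_eq hu, ← evL_Lt_eq hv]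
  exact eqB_sound H hbs hbn h

theorem gv_ne_of {u v : List ℕ} (hu : letters u = true) (hv : letters v = true) (h : (!(eqB ap bsL u v)) = true) : gv u ≠ gv v := by
  rw [← evL_Lt_eq hu, ← evL_Lt_eq hv]
  exact eqB_false H hbs hbn h

theorem Phi_gv {w : List ℕ} (hw : letters w = true) {p : ℕ} (hp : p < 3510) : Phi (gv w) p = ev ap w p := by
  rw [← evL_Lt_eq hw]
  exact H.ev_eq w hp

section gen

variable {Γ : Type*} [Group Γ] [Finite Γ] {Φ : Γ →* Equiv.Perm ℕ}

/-- The order of a stabiliser in a subgroup: the mask is in the orbit of `b`. -/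
theorem card_step_gen {K K' : Subgroup Γ} {b M c k : ℕ} (hS : Sound Φ K b M) (hle : K' ≤ K)
    (hK' : ∀ x ∈ K', Φ x b = b) (hM : M < 2 ^ 2 ^ k) (hc : sumRange M.testBit k 0 = c) :
    c * Nat.card K' ≤ Nat.card K := by
  classical
  set L := K'.subgroupOf K with hL
  have h1 : Nat.card L * L.index = Nat.card K := Subgroup.card_mul_index _
  have h2 : Nat.card L = Nat.card K' :=
    Nat.card_congr (Subgroup.subgroupOfEquivOfLe hle).toEquiv
  have h3 : c ≤ L.index := by
    rw [← hc, ← ncard_mask hM]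
    have hch : ∀ i : {i | M.testBit i = true}, ∃ h : K, Φ h b = i := by
      rintro ⟨i, hi⟩
      obtain ⟨h, hh, he⟩ := hS i hi
      exact ⟨⟨h, hh⟩, he⟩
    choose f hf using hch
    let F : {i | M.testBit i = true} → K ⧸ L := fun i => (f i : K ⧸ L)
    have hF : Function.Injective F := by
      intro i j hij
      have h4 : (f i)⁻¹ * f j ∈ L := QuotientGroup.eq.mp hij
      have h5 : ((f i)⁻¹ * f j : K).1 ∈ K' := h4
      have h7 : Φ ((f i : Γ)⁻¹ * (f j : Γ)) b = b := hK' _ h5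
      rw [map_mul, Equiv.Perm.mul_apply, map_inv, hf j, Equiv.Perm.inv_eq_iff_eq, hf i] at h7
      exact Subtype.ext h7.symm
    have hfin : Finite (K ⧸ L) := inferInstance
    have := Nat.card_le_card_of_injective F hF
    simpa [Subgroup.index, Set.ncard] using this
  rw [← h1, h2, mul_comm]
  exact Nat.mul_le_mul_left _ h3

end gen

theorem sound_growS1 {K : Subgroup Gq} {gens : List (List ℕ)} (hg : ∀ g ∈ gens, gv g ∈ K) {p : ℕ} :
    ∀ (M : ℕ), Sound Phi K p M → Sound Phi K p (growS1 wa gens M) := by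
  unfold growS1
  induction gens with
  | nil => exact fun M h => h
  | cons g gens ih =>
    intro M hM
    rw [List.foldl_cons]
    apply ih (fun g' hg' => hg g' (List.mem_cons_of_mem _ hg'))
    exact sound_step hM (hg g List.mem_cons_self) (fun i => hwa2 g M i)

theorem sound_growS {K : Subgroup Gq} {gens : List (List ℕ)} (hg : ∀ g ∈ gens, gv g ∈ K) {p : ℕ} :
    ∀ (t M : ℕ), Sound Phi K p M → Sound Phi K p (growS wa gens t M)
  | 0, M, h => h
  | t + 1, M, h => by
    rw [growS]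
    exact sound_growS hg t _ (sound_growS1 hg M h)

instance finGq : Finite Gq := finG

/-! ### The generators -/

/-- All the generators. -/
def cW : List (List ℕ) := gW2 ++ gW3 ++ gW4 ++ gW5 ++ gW6 ++ gW7 ++ gW8 ++ [swW]

/-- The subgroup generated. -/
noncomputable def LL : Subgroup Gq := Subgroup.closure {x | ∃ w ∈ cW, x = gv w}

theorem gv_mem_LL {w : List ℕ} (h : w ∈ cW) : gv w ∈ LL := Subgroup.subset_closure ⟨w, h, rfl⟩

/-- The stabilizers in `LL`. -/
noncomputable def Lp (bs : List ℕ) : Subgroup Gq := LL ⊓ ptStab Phi bs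

theorem lev {words : List (List ℕ)} {bs : List ℕ} {b t M c k : ℕ} (h1 : ∀ w ∈ words, w ∈ cW)
    (h2 : ∀ w ∈ words, ∀ p ∈ bs, wa w (2 ^ p) = 2 ^ p) (h3 : growS wa words t (2 ^ b) = M)
    (h4 : M < 2 ^ 2 ^ k) (h5 : sumRange M.testBit k 0 = c) :
    c * Nat.card (Lp (b :: bs)) ≤ Nat.card (Lp bs) := by
  refine card_step_gen (Φ := Phi) (b := b) (M := M) (k := k) ?_ ?_ ?_ h4 h5
  · rw [← h3]
    refine sound_growS ?_ t _ (sound_single _ _)
    intro g hg
    exact ⟨gv_mem_LL (h1 g hg), fun p hp => fix_of_wa (h2 g hg p hp)⟩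
  · intro x hx
    exact ⟨hx.1, ptStab_cons_le Phi b bs hx.2⟩
  · intro x hx
    exact hx.2 b List.mem_cons_self

set_option Elab.async false in
theorem fx2 : ∀ w ∈ gW2, ∀ p ∈ ([12, 0] : List ℕ), wa w (2 ^ p) = 2 ^ p := by decide +kernel

set_option Elab.async false in
theorem gr2 : growS wa gW2 5 (2 ^ 59) = M2 := by decide +kernel

theorem sb2 : ∀ w ∈ gW2, w ∈ cW := by
  intro w hw
  simp only [cW, List.mem_append]
  tauto

theorem lv2 : 180 * Nat.card (Lp (59 :: [12, 0])) ≤ Nat.card (Lp [12, 0]) :=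
  lev sb2 fx2 gr2 M2_lt M2_cnt

set_option Elab.async false in
theorem fx3 : ∀ w ∈ gW3, ∀ p ∈ ([59, 12, 0] : List ℕ), wa w (2 ^ p) = 2 ^ p := by decide +kernel

set_option Elab.async false in
theorem gr3 : growS wa gW3 2 (2 ^ 173) = M3 := by decide +kernel

theorem sb3 : ∀ w ∈ gW3, w ∈ cW := by
  intro w hw
  simp only [cW, List.mem_append]
  tauto

theorem lv3 : 3 * Nat.card (Lp (173 :: [59, 12, 0])) ≤ Nat.card (Lp [59, 12, 0]) :=
  lev sb3 fx3 gr3 M3_lt M3_cnt

set_option Elab.async false in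
theorem fx4 : ∀ w ∈ gW4, ∀ p ∈ ([173, 59, 12, 0] : List ℕ), wa w (2 ^ p) = 2 ^ p := by decide +kernel

set_option Elab.async false in
theorem gr4 : growS wa gW4 2 (2 ^ 26) = M4 := by decide +kernel

theorem sb4 : ∀ w ∈ gW4, w ∈ cW := by
  intro w hw
  simp only [cW, List.mem_append]
  tauto

theorem lv4 : 48 * Nat.card (Lp (26 :: [173, 59, 12, 0])) ≤ Nat.card (Lp [173, 59, 12, 0]) :=
  lev sb4 fx4 gr4 M4_lt M4_cnt

set_option Elab.async false in
theorem fx5 : ∀ w ∈ gW5, ∀ p ∈ ([26, 173, 59, 12, 0] : List ℕ), wa w (2 ^ p) = 2 ^ p := by decide +kernel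

set_option Elab.async false in
theorem gr5 : growS wa gW5 1 (2 ^ 1) = M5 := by decide +kernel

theorem sb5 : ∀ w ∈ gW5, w ∈ cW := by
  intro w hw
  simp only [cW, List.mem_append]
  tauto

theorem lv5 : 32 * Nat.card (Lp (1 :: [26, 173, 59, 12, 0])) ≤ Nat.card (Lp [26, 173, 59, 12, 0]) :=
  lev sb5 fx5 gr5 M5_lt M5_cnt

set_option Elab.async false in
theorem fx6 : ∀ w ∈ gW6, ∀ p ∈ ([1, 26, 173, 59, 12, 0] : List ℕ), wa w (2 ^ p) = 2 ^ p := by decide +kernel

set_option Elab.async false in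
theorem gr6 : growS wa gW6 1 (2 ^ 3) = M6 := by decide +kernel

theorem sb6 : ∀ w ∈ gW6, w ∈ cW := by
  intro w hw
  simp only [cW, List.mem_append]
  tauto

theorem lv6 : 8 * Nat.card (Lp (3 :: [1, 26, 173, 59, 12, 0])) ≤ Nat.card (Lp [1, 26, 173, 59, 12, 0]) :=
  lev sb6 fx6 gr6 M6_lt M6_cnt

set_option Elab.async false in
theorem fx7 : ∀ w ∈ gW7, ∀ p ∈ ([3, 1, 26, 173, 59, 12, 0] : List ℕ), wa w (2 ^ p) = 2 ^ p := by decide +kernel

set_option Elab.async false in
theorem gr7 : growS wa gW7 1 (2 ^ 21) = M7 := by decide +kernel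

theorem sb7 : ∀ w ∈ gW7, w ∈ cW := by
  intro w hw
  simp only [cW, List.mem_append]
  tauto

theorem lv7 : 2 * Nat.card (Lp (21 :: [3, 1, 26, 173, 59, 12, 0])) ≤ Nat.card (Lp [3, 1, 26, 173, 59, 12, 0]) :=
  lev sb7 fx7 gr7 M7_lt M7_cnt

set_option Elab.async false in
theorem fx8 : ∀ w ∈ gW8, ∀ p ∈ ([21, 3, 1, 26, 173, 59, 12, 0] : List ℕ), wa w (2 ^ p) = 2 ^ p := by decide +kernel

set_option Elab.async false in
theorem gr8 : growS wa gW8 1 (2 ^ 18) = M8 := by decide +kernel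

theorem sb8 : ∀ w ∈ gW8, w ∈ cW := by
  intro w hw
  simp only [cW, List.mem_append]
  tauto

theorem lv8 : 2 * Nat.card (Lp (18 :: [21, 3, 1, 26, 173, 59, 12, 0])) ≤ Nat.card (Lp [21, 3, 1, 26, 173, 59, 12, 0]) :=
  lev sb8 fx8 gr8 M8_lt M8_cnt


theorem card_Lp_ge : 26542080 ≤ Nat.card (Lp [12, 0]) := by
  have h0 : 0 < Nat.card (Lp [18, 21, 3, 1, 26, 173, 59, 12, 0]) := Nat.card_pos
  have h2 := lv2
  have h3 := lv3
  have h4 := lv4
  have h5 := lv5
  have h6 := lv6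
  have h7 := lv7
  have h8 := lv8
  omega

/-- The joint stabilizer. -/
noncomputable def K0 : Subgroup Gq := ptStab Phi [12, 0]

theorem card_K0_le : Nat.card K0 ≤ 26542080 := by
  have h1 := L0
  have h2 := L1
  rw [top_eq] at h1
  have h3 : Nat.card (⊤ : Subgroup Gq) = 64561751654400 := by
    rw [Subgroup.card_top]; exact card_spec.1
  have h4 : 3510 * Nat.card (ptStab Phi ([0] : List ℕ)) ≤ 64561751654400 := by
    rw [← h3]; exact h1
  show Nat.card (ptStab Phi ([12, 0] : List ℕ)) ≤ _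
  omega

theorem Lp_eq : Lp [12, 0] = K0 := by
  apply Subgroup.eq_of_le_of_card_ge
  · exact inf_le_right
  · exact card_K0_le.trans card_Lp_ge

theorem card_K0 : Nat.card K0 = 26542080 := le_antisymm card_K0_le (Lp_eq ▸ card_Lp_ge)

theorem K0_le_LL : K0 ≤ LL := by
  rw [← Lp_eq]; exact inf_le_left

/-- The product of the two transpositions. -/
noncomputable def jj : Gq := Lt 0 * Lt 2

/-- The centralizer. -/
noncomputable abbrev XX : Subgroup Gq := Subgroup.centralizer ({jj} : Set Gq)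

theorem mem_XX {g : Gq} : g ∈ XX ↔ g * jj = jj * g := Subgroup.mem_centralizer_singleton_iff

theorem jj_eq : jj = gv [0, 2] := by
  show Lt 0 * Lt 2 = _
  rw [Lt_eq (by norm_num), Lt_eq (by norm_num)]
  simp [gv, evL]

set_option Elab.async false in
theorem cW_letters : ∀ w ∈ cW, letters w = true := by decide +kernel

set_option Elab.async false in
theorem cW_comm : ∀ w ∈ cW, eqB ap bsL (w ++ [0, 2]) ([0, 2] ++ w) = true := by decide +kernel

/-- A word commuting with `jj`. -/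
theorem mem_XX_of {w : List ℕ} (h1 : letters w = true) (h2 : eqB ap bsL (w ++ [0, 2]) ([0, 2] ++ w) = true) : gv w ∈ XX := by
  rw [mem_XX, jj_eq, ← gv_append, ← gv_append]
  apply gv_eq_of _ _ h2
  · simpa [letters] using h1
  · simpa [letters] using h1

theorem LL_le : LL ≤ XX := by
  rw [LL, Subgroup.closure_le]
  rintro _ ⟨w, hw, rfl⟩
  exact mem_XX_of (cW_letters w hw) (cW_comm w hw)

set_option Elab.async false in
theorem sw0 : ev ap swW 0 = 12 := by decide +kernel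
set_option Elab.async false in
theorem sw12 : ev ap swW 12 = 0 := by decide +kernel

/-- The swap. -/
noncomputable def ss : Gq := gv swW

theorem ss_mem : ss ∈ XX := LL_le (gv_mem_LL (by simp [cW]))

theorem ss0 : Phi ss 0 = 12 := by
  rw [ss, Phi_gv (by decide) (by norm_num), sw0]

theorem ss12 : Phi ss 12 = 0 := by
  rw [ss, Phi_gv (by decide) (by norm_num), sw12]

theorem Lt0_Lt2_ne : Lt 0 ≠ Lt 2 := by
  intro h
  have := pq_uniq Lt0_pq' (h ▸ Lt2_pq)
  norm_num at this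

theorem Lt0_mem : Lt 0 ∈ D0 := mem_D0_of_pq Lt0_pq'
theorem Lt2_mem : Lt 2 ∈ D0 := mem_D0_of_pq Lt2_pq

theorem Lt02_comm : Lt 0 * Lt 2 = Lt 2 * Lt 0 := by
  rw [comm_iff_fix Lt0_pq' Lt2_pq, ap_eq (by norm_num)]
  decide +kernel

/-- An element of the centralizer permutes the two transpositions. -/
theorem X_cases {g : Gq} (hg : g ∈ XX) : (Phi g 0 = 0 ∧ Phi g 12 = 12) ∨ (Phi g 0 = 12 ∧ Phi g 12 = 0) := by
  have h1 : (g * Lt 0 * g⁻¹) * (g * Lt 2 * g⁻¹) = Lt 0 * Lt 2 := by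
    have h := mem_XX.1 hg
    have e : (g * Lt 0 * g⁻¹) * (g * Lt 2 * g⁻¹) = g * jj * g⁻¹ := by
      simp only [jj]; group
    rw [e, h]
    simp only [jj]; group
  have hx : g * Lt 0 * g⁻¹ ∈ D0 := D0_conj Lt0_mem g
  have hy : g * Lt 2 * g⁻¹ ∈ D0 := D0_conj Lt2_mem g
  have hne : g * Lt 0 * g⁻¹ ≠ g * Lt 2 * g⁻¹ := by
    intro h
    apply Lt0_Lt2_ne
    exact mul_left_cancel (mul_right_cancel h)
  have hc : (g * Lt 0 * g⁻¹) * (g * Lt 2 * g⁻¹) = (g * Lt 2 * g⁻¹) * (g * Lt 0 * g⁻¹) := by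
    calc (g * Lt 0 * g⁻¹) * (g * Lt 2 * g⁻¹) = g * (Lt 0 * Lt 2) * g⁻¹ := by group
      _ = g * (Lt 2 * Lt 0) * g⁻¹ := by rw [Lt02_comm]
      _ = _ := by group
  have f1 := fac2_of hx hy hne hc
  have f2 := fac2_of Lt0_mem Lt2_mem Lt0_Lt2_ne Lt02_comm
  rw [h1] at f1
  have hS := uniq2_std _ _ f1 f2
  have h2 := (hS (g * Lt 0 * g⁻¹)).1 (by simp)
  have h3 := (hS (g * Lt 2 * g⁻¹)).1 (by simp)
  simp only [List.mem_cons, List.not_mem_nil, or_false] at h2 h3
  have p0 : Pq (g * Lt 0 * g⁻¹) (Phi g 0) := pq_conj Lt0_pq' g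
  have p2 : Pq (g * Lt 2 * g⁻¹) (Phi g 12) := pq_conj Lt2_pq g
  rcases h2 with h2 | h2 <;> rcases h3 with h3 | h3
  · exact absurd (h2.trans h3.symm) hne
  · left
    exact ⟨pq_uniq p0 (by rw [h2]; exact Lt0_pq'), pq_uniq p2 (by rw [h3]; exact Lt2_pq)⟩
  · right
    exact ⟨pq_uniq p0 (by rw [h2]; exact Lt2_pq), pq_uniq p2 (by rw [h3]; exact Lt0_pq')⟩
  · exact absurd (h2.trans h3.symm) hne

theorem XX_le : XX ≤ LL := by
  intro g hg
  rcases X_cases hg with ⟨h1, h2⟩ | ⟨h1, h2⟩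
  · apply K0_le_LL
    intro b hb
    simp only [List.mem_cons, List.not_mem_nil, or_false] at hb
    rcases hb with rfl | rfl
    · exact h2
    · exact h1
  · have hs : ss ∈ LL := gv_mem_LL (by simp [cW])
    have h3 : ss * g ∈ LL := by
      apply K0_le_LL
      intro b hb
      simp only [List.mem_cons, List.not_mem_nil, or_false] at hb
      rcases hb with rfl | rfl
      · rw [map_mul, Equiv.Perm.mul_apply, h2, ss0]
      · rw [map_mul, Equiv.Perm.mul_apply, h1, ss12]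
    have e : g = ss⁻¹ * (ss * g) := by group
    rw [e]
    exact LL.mul_mem (LL.inv_mem hs) h3

theorem XX_eq : XX = LL := le_antisymm XX_le LL_le

/-- The joint centralizer inside. -/
theorem K0_le_XX : K0 ≤ XX := by
  rw [XX_eq]; exact K0_le_LL

/-- An element of the stabilizer commutes with both transpositions. -/
theorem mem_K0_iff {g : Gq} : g ∈ K0 ↔ g * Lt 0 = Lt 0 * g ∧ g * Lt 2 = Lt 2 * g := by
  constructor
  · intro h
    refine ⟨comm_of_fix Lt0_pq' (h 0 (by simp)), comm_of_fix Lt2_pq (h 12 (by simp))⟩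
  · rintro ⟨h1, h2⟩ b hb
    simp only [List.mem_cons, List.not_mem_nil, or_false] at hb
    rcases hb with rfl | rfl
    · exact fix_of_comm Lt2_pq h2
    · exact fix_of_comm Lt0_pq' h1

theorem ss_notMem : ss ∉ K0 := by
  intro h
  have := h 0 (by simp)
  rw [ss0] at this
  norm_num at this

/-- The index of the joint centralizer. -/
theorem index_K0 : (K0.subgroupOf XX).index = 2 := by
  rw [Subgroup.index_eq_two_iff]
  refine ⟨⟨ss, ss_mem⟩, ?_⟩
  rintro ⟨b, hb⟩
  simp only [Subgroup.mem_subgroupOf]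
  show Xor' (b * ss ∈ K0) (b ∈ K0)
  have hK : ∀ g : Gq, g ∈ K0 ↔ Phi g 0 = 0 ∧ Phi g 12 = 12 := by
    intro g
    constructor
    · intro h
      exact ⟨h 0 (by simp), h 12 (by simp)⟩
    · rintro ⟨h1, h2⟩ c hc
      simp only [List.mem_cons, List.not_mem_nil, or_false] at hc
      rcases hc with rfl | rfl
      · exact h2
      · exact h1
  rcases X_cases hb with ⟨h1, h2⟩ | ⟨h1, h2⟩
  · right
    refine ⟨(hK b).2 ⟨h1, h2⟩, ?_⟩
    rw [hK, map_mul, Equiv.Perm.mul_apply, ss0, h2]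
    norm_num
  · left
    refine ⟨?_, ?_⟩
    · rw [hK, map_mul, Equiv.Perm.mul_apply, Equiv.Perm.mul_apply, ss0, ss12, h1, h2]
      simp
    · rw [hK, h1]
      norm_num

theorem card_XX : Nat.card XX = 53084160 := by
  have h1 := Subgroup.card_mul_index (K0.subgroupOf XX)
  rw [index_K0, Nat.card_congr (Subgroup.subgroupOfEquivOfLe K0_le_XX).toEquiv, card_K0] at h1
  exact h1.symm

end Cfsg.Agent.Lib.Fi22J2
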