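import Mathlib
import Cfsg.Prelude.Def_Classical
import Cfsg.Agent.Lib.OrthoDihedral

/-!
# The isometry group of the elliptic quadratic form in dimension 6 over the field with two elements

It is generated by six reflections (the type `E₆`); a stabiliser chain on vectors; it has no nontrivial normal 2-subgroup.
-/

set_option autoImplicit false
set_option maxRecDepth 1000000
set_option linter.all false

namespace Cfsg.Agent.Lib.Fi22J2

open Matrix

/-- The index type. -/
abbrev I6 := (Fin 2 ⊕ Fin 2) ⊕ Fin 2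
/-- The vectors. -/
abbrev Vec := I6 → ZMod 2
/-- The form. -/
abbrev Qm : Vec → ZMod 2 := Cfsg.quadFormMinus 2 (ZMod 2) 1 1
/-- The group. -/
abbrev O6 := Cfsg.isometryGroup (ZMod 2) Qm

/-- The place of a coordinate. -/
def idx6 : I6 → ℕ
  | .inl (.inl 0) => 0
  | .inl (.inr 0) => 1
  | .inl (.inl 1) => 2
  | .inl (.inr 1) => 3
  | .inr 0 => 4
  | .inr 1 => 5

/-- The vector of a code. -/
def dv (c : ℕ) : Vec := fun i => if c.testBit (idx6 i) then 1 else 0

/-- The code of a vector. -/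
def ev6 (v : Vec) : ℕ :=
  (v (.inl (.inl 0))).val + 2 * (v (.inl (.inr 0))).val + 4 * (v (.inl (.inl 1))).val + 8 * (v (.inl (.inr 1))).val
    + 16 * (v (.inr 0)).val + 32 * (v (.inr 1)).val

set_option Elab.async false in
theorem dv_ev6 : ∀ v : Vec, dv (ev6 v) = v := by decide +kernel

/-- The polar form. -/
def Bil (u v : Vec) : ZMod 2 := Qm (u + v) + Qm u + Qm v

/-- The reflection in a vector. -/
def rv (u v : Vec) : Vec := v + Bil u v • u

/-- The simple roots. -/
def uc : Fin 6 → ℕ := ![32, 16, 40, 12, 11, 14]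

/-- The simple roots. -/
def us (i : Fin 6) : Vec := dv (uc i)

/-- The matrix of a reflection. -/
def Rm (i : Fin 6) : Matrix I6 I6 (ZMod 2) := Matrix.of fun a b => rv (us i) (Pi.single b 1) a

set_option Elab.async false in
theorem Rm_mulVec : ∀ (i : Fin 6) (v : Vec), Rm i *ᵥ v = rv (us i) v := by decide +kernel

set_option Elab.async false in
theorem rv_rv : ∀ (i : Fin 6) (v : Vec), rv (us i) (rv (us i) v) = v := by decide +kernel

set_option Elab.async false in
theorem rv_Q : ∀ (i : Fin 6) (v : Vec), Qm (rv (us i) v) = Qm v := by decide +kernel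

theorem Rm_sq (i : Fin 6) : Rm i * Rm i = 1 := by
  apply Matrix.toLin'.injective
  ext j k
  simp only [Matrix.toLin'_mul, LinearMap.comp_apply, LinearMap.single_apply, Matrix.toLin'_apply, Matrix.toLin'_one, LinearMap.id_comp, LinearMap.id_apply]
  rw [Rm_mulVec, Rm_mulVec, rv_rv]
  all_goals rfl

/-- The matrix of an element. -/
def mt (N : O6) : Matrix I6 I6 (ZMod 2) := ((N : Matrix.GeneralLinearGroup I6 (ZMod 2)) : Matrix I6 I6 (ZMod 2))

theorem mt_mul (N M : O6) : mt (N * M) = mt N * mt M := rfl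
theorem mt_one : mt (1 : O6) = 1 := rfl

theorem mt_Q (N : O6) (v : Vec) : Qm (mt N *ᵥ v) = Qm v := N.2 v 0

theorem act_mul (N M : O6) (v : Vec) : mt (N * M) *ᵥ v = mt N *ᵥ (mt M *ᵥ v) := by
  rw [mt_mul, Matrix.mulVec_mulVec]

theorem act_inv (N : O6) (v : Vec) : mt N⁻¹ *ᵥ (mt N *ᵥ v) = v := by
  rw [← act_mul]; simp [mt_one]

theorem act_inv' (N : O6) (v : Vec) : mt N *ᵥ (mt N⁻¹ *ᵥ v) = v := by
  rw [← act_mul]; simp [mt_one]

theorem act_add (N : O6) (u v : Vec) : mt N *ᵥ (u + v) = mt N *ᵥ u + mt N *ᵥ v := Matrix.mulVec_add _ _ _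

/-- A reflection as an isometry. -/
def Rf (i : Fin 6) : O6 := ⟨⟨Rm i, Rm i, Rm_sq i, Rm_sq i⟩, fun u _ => by
  show Qm (Rm i *ᵥ u) = Qm u
  rw [Rm_mulVec, rv_Q]⟩

theorem mt_Rf (i : Fin 6) (v : Vec) : mt (Rf i) *ᵥ v = rv (us i) v := Rm_mulVec i v

/-- The action of a word of reflections. -/
def actW (w : List (Fin 6)) (v : Vec) : Vec := w.foldr (fun i x => rv (us i) x) v

/-- The element of a word of reflections. -/
def prW (w : List (Fin 6)) : O6 := (w.map Rf).prod

theorem prW_act (w : List (Fin 6)) (v : Vec) : mt (prW w) *ᵥ v = actW w v := by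
  induction w with
  | nil => simp [prW, actW, mt_one]
  | cons i w ih =>
    have e : prW (i :: w) = Rf i * prW w := by simp [prW]
    rw [e, act_mul, ih, mt_Rf]
    rfl

/-- The subgroup generated by the reflections. -/
def SR : Subgroup O6 := Subgroup.closure (Set.range Rf)

theorem prW_mem (w : List (Fin 6)) : prW w ∈ SR := by
  induction w with
  | nil => simp [prW]
  | cons i w ih =>
    have e : prW (i :: w) = Rf i * prW w := by simp [prW]
    rw [e]
    exact SR.mul_mem (Subgroup.subset_closure ⟨i, rfl⟩) ih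

/-- The span of a list. -/
def spanL : List Vec → List Vec
  | [] => [0]
  | p :: l => spanL l ++ (spanL l).map (p + ·)

theorem fix_span {N : O6} : ∀ {pre : List Vec}, (∀ p ∈ pre, mt N *ᵥ p = p) → ∀ w ∈ spanL pre, mt N *ᵥ w = w
  | [], _, w, hw => by
    simp only [spanL, List.mem_singleton] at hw
    subst hw
    exact Matrix.mulVec_zero _
  | p :: l, h, w, hw => by
    simp only [spanL, List.mem_append, List.mem_map] at hw
    have hl : ∀ q ∈ l, mt N *ᵥ q = q := fun q hq => h q (List.mem_cons_of_mem _ hq)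
    rcases hw with hw | ⟨x, hx, rfl⟩
    · exact fix_span hl w hw
    · rw [act_add, h p List.mem_cons_self, fix_span hl x hx]

/-- The condition on an image. -/
def condY (pre : List Vec) (u y : Vec) : Prop := ∀ w ∈ spanL pre, Qm (y + w) = Qm (u + w) ∧ y ≠ w

instance (pre : List Vec) (u y : Vec) : Decidable (condY pre u y) := by
  unfold condY; infer_instance

theorem condY_of {N : O6} {pre : List Vec} {u : Vec} (hN : ∀ p ∈ pre, mt N *ᵥ p = p) (hu : ∀ w ∈ spanL pre, u ≠ w) :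
    condY pre u (mt N *ᵥ u) := by
  intro w hw
  have h1 := fix_span hN w hw
  constructor
  · rw [← mt_Q N (u + w), act_add, h1]
  · intro h2
    apply hu w hw
    have h3 : mt N *ᵥ u = mt N *ᵥ w := by rw [h1]; exact h2
    have := congrArg (fun x => mt N⁻¹ *ᵥ x) h3
    simpa only [act_inv] using this

/-- The test of one level. -/
def lvChk (pre : List Vec) (u y : Vec) (T : List (List (Fin 6))) : Bool :=
  !(decide (condY pre u y)) || T.any (fun t => decide (actW t u = y) && pre.all (fun p => decide (actW t p = p)))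

theorem lvChk_spec {pre : List Vec} {u y : Vec} {T : List (List (Fin 6))} (h : lvChk pre u y T = true)
    (hc : condY pre u y) : ∃ t ∈ T, actW t u = y ∧ ∀ p ∈ pre, actW t p = p := by
  unfold lvChk at h
  simp only [decide_eq_true_eq.mpr hc, decide_true, Bool.not_true, Bool.false_or, List.any_eq_true, Bool.and_eq_true,
    decide_eq_true_eq, List.all_eq_true] at h
  obtain ⟨t, ht, h1, h2⟩ := h
  exact ⟨t, ht, h1, h2⟩

/-- One step of the chain. -/
theorem sift_step {pre : List Vec} {u : Vec} {tbl : List (List (Fin 6))} (hu : ∀ w ∈ spanL pre, u ≠ w)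
    (hT' : ∀ y, lvChk pre u y tbl = true)
    (hS : ∀ N : O6, (∀ p ∈ u :: pre, mt N *ᵥ p = p) → N ∈ SR) (N : O6) (hN : ∀ p ∈ pre, mt N *ᵥ p = p) : N ∈ SR := by
  obtain ⟨t, _, h1, h2⟩ := lvChk_spec (hT' _) (condY_of hN hu)
  have h3 : (prW t)⁻¹ * N ∈ SR := by
    apply hS
    intro p hp
    rw [act_mul]
    rcases List.mem_cons.mp hp with rfl | hp
    · rw [← h1, ← prW_act, act_inv]
    · rw [hN p hp]
      have := h2 p hp
      rw [← prW_act] at this
      conv_lhs => rw [← this]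
      rw [act_inv]
  have h4 : N = prW t * ((prW t)⁻¹ * N) := by group
  rw [h4]
  exact SR.mul_mem (prW_mem t) h3

/-- The chain. -/
def pre0 : List Vec := []

/-- The chain. -/
def pre1 : List Vec := us 0 :: pre0

/-- The chain. -/
def pre2 : List Vec := us 1 :: pre1

/-- The chain. -/
def pre3 : List Vec := us 2 :: pre2

/-- The chain. -/
def pre4 : List Vec := us 3 :: pre3

/-- The chain. -/
def pre5 : List Vec := us 4 :: pre4

/-- The chain. -/
def pre6 : List Vec := us 5 :: pre5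

/-- A level of the chain. -/
def T0 : List (List (Fin 6)) := [[],
  [1],
  [0, 1],
  [2, 1],
  [2, 0, 1],
  [3, 2, 1],
  [5, 2, 1],
  [1, 2, 0, 1],
  [3, 2, 0, 1],
  [5, 2, 0, 1],
  [4, 3, 2, 1],
  [5, 3, 2, 1],
  [3, 1, 2, 0, 1],
  [5, 1, 2, 0, 1],
  [4, 3, 2, 0, 1],
  [5, 3, 2, 0, 1],
  [5, 4, 3, 2, 1],
  [2, 5, 3, 2, 1],
  [2, 3, 1, 2, 0, 1],
  [4, 3, 1, 2, 0, 1],
  [5, 3, 1, 2, 0, 1],
  [2, 5, 1, 2, 0, 1],
  [5, 4, 3, 2, 0, 1],
  [2, 5, 3, 2, 0, 1],
  [2, 5, 4, 3, 2, 1],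
  [1, 2, 5, 3, 2, 1],
  [4, 2, 3, 1, 2, 0, 1],
  [5, 4, 3, 1, 2, 0, 1],
  [2, 5, 4, 3, 2, 0, 1],
  [1, 2, 5, 4, 3, 2, 1],
  [3, 2, 5, 4, 3, 2, 1],
  [3, 4, 2, 3, 1, 2, 0, 1],
  [3, 2, 5, 4, 3, 2, 0, 1],
  [3, 1, 2, 5, 4, 3, 2, 1],
  [2, 3, 1, 2, 5, 4, 3, 2, 1],
  [5, 2, 3, 1, 2, 5, 4, 3, 2, 1]]

set_option Elab.async false in
theorem hu0 : ∀ w ∈ spanL pre0, us 0 ≠ w := by decide +kernel

set_option Elab.async false in
theorem hT0 : ∀ y, lvChk pre0 (us 0) y T0 = true := by decide +kernel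

/-- A level of the chain. -/
def T1 : List (List (Fin 6)) := [[],
  [0],
  [2],
  [2, 0],
  [3, 2],
  [5, 2],
  [3, 2, 0],
  [5, 2, 0],
  [4, 3, 2],
  [5, 3, 2],
  [4, 3, 2, 0],
  [5, 3, 2, 0],
  [5, 4, 3, 2],
  [2, 5, 3, 2],
  [5, 4, 3, 2, 0],
  [2, 5, 3, 2, 0],
  [2, 5, 4, 3, 2],
  [2, 5, 4, 3, 2, 0],
  [3, 2, 5, 4, 3, 2],
  [3, 2, 5, 4, 3, 2, 0]]

set_option Elab.async false in
theorem hu1 : ∀ w ∈ spanL pre1, us 1 ≠ w := by decide +kernel

set_option Elab.async false in
theorem hT1 : ∀ y, lvChk pre1 (us 1) y T1 = true := by decide +kernel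

/-- A level of the chain. -/
def T2 : List (List (Fin 6)) := [[],
  [3],
  [5],
  [4, 3],
  [5, 3],
  [5, 4, 3],
  [2, 3, 4, 1, 2, 3, 0, 1, 2, 5, 2, 3, 4, 1, 2, 3, 0, 1, 2],
  [2, 5, 1, 2, 3, 0, 1, 2, 5, 1, 2, 3, 4, 0, 1, 2, 3, 0, 1, 0],
  [2, 5, 4, 1, 2, 3, 0, 1, 2, 5, 1, 2, 3, 4, 0, 1, 2, 3, 0, 1, 0]]

set_option Elab.async false in
theorem hu2 : ∀ w ∈ spanL pre2, us 2 ≠ w := by decide +kernel

set_option Elab.async false in
theorem hT2 : ∀ y, lvChk pre2 (us 2) y T2 = true := by decide +kernel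

/-- A level of the chain. -/
def T3 : List (List (Fin 6)) := [[],
  [4],
  [3, 2, 5, 1, 2, 3, 0, 1, 2, 5, 0, 1, 2, 3, 0, 1, 2, 0, 1, 0],
  [3, 2, 5, 1, 2, 3, 0, 1, 2, 5, 0, 1, 2, 3, 4, 0, 1, 2, 0, 1, 0]]

set_option Elab.async false in
theorem hu3 : ∀ w ∈ spanL pre3, us 3 ≠ w := by decide +kernel

set_option Elab.async false in
theorem hT3 : ∀ y, lvChk pre3 (us 3) y T3 = true := by decide +kernel

/-- A level of the chain. -/
def T4 : List (List (Fin 6)) := [[]]

set_option Elab.async false in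
theorem hu4 : ∀ w ∈ spanL pre4, us 4 ≠ w := by decide +kernel

set_option Elab.async false in
theorem hT4 : ∀ y, lvChk pre4 (us 4) y T4 = true := by decide +kernel

/-- A level of the chain. -/
def T5 : List (List (Fin 6)) := [[],
  [5, 2, 3, 4, 1, 2, 3, 0, 1, 2, 5, 2, 3, 4, 1, 2, 3, 0, 1, 2, 5]]

set_option Elab.async false in
theorem hu5 : ∀ w ∈ spanL pre5, us 5 ≠ w := by decide +kernel

set_option Elab.async false in
theorem hT5 : ∀ y, lvChk pre5 (us 5) y T5 = true := by decide +kernel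

set_option Elab.async false in
theorem span_all : ∀ v : Vec, v ∈ spanL pre6 := by decide +kernel

theorem eq_one_of_fix {N : O6} (h : ∀ v : Vec, mt N *ᵥ v = v) : N = 1 := by
  apply Subtype.ext
  apply Units.ext
  show mt N = 1
  ext i j
  have := congrFun (h (Pi.single j 1)) i
  rw [Matrix.mulVec_single_one] at this
  simpa [Matrix.one_apply, Pi.single_apply, eq_comm] using this

theorem eq_one_of_fix_us {N : O6} (h : ∀ p ∈ pre6, mt N *ᵥ p = p) : N = 1 :=
  eq_one_of_fix fun v => fix_span h v (span_all v)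

theorem SR_top : SR = ⊤ := by
  rw [eq_top_iff]
  intro N _
  refine sift_step hu0 hT0 (fun N h => ?_) N (by simp [pre0])
  refine sift_step hu1 hT1 (fun N h => ?_) N h
  refine sift_step hu2 hT2 (fun N h => ?_) N h
  refine sift_step hu3 hT3 (fun N h => ?_) N h
  refine sift_step hu4 hT4 (fun N h => ?_) N h
  refine sift_step hu5 hT5 (fun N h => ?_) N h
  rw [eq_one_of_fix_us h]
  exact SR.one_mem

/-- The order of the group. -/
theorem card_O6 : Nat.card O6 = 51840 := by
  have hab : ∀ z₁ z₂ : ZMod 2, z₁ ^ 2 + 1 * z₁ * z₂ + 1 * z₂ ^ 2 = 0 → z₁ = 0 ∧ z₂ = 0 := by decide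
  have := Cfsg.Agent.Lib.OrthoDihedral.card_isometry_minus (F := ZMod 2) (q := 2) (by simp [ZMod.card]) 3 (by norm_num) 1 1 hab
  rw [show 3 - 1 = 2 from rfl] at this
  rw [this]
  norm_num [Finset.prod_range_succ]

set_option Elab.async false in
theorem us_Q : ∀ i : Fin 6, Qm (us i) = 1 := by decide +kernel

/-- Two isometries agreeing on the nonsingular vectors are equal. -/
theorem eq_of_ns {N M : O6} (h : ∀ v : Vec, Qm v = 1 → mt N *ᵥ v = mt M *ᵥ v) : N = M := by
  have h1 : N⁻¹ * M = 1 := by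
    apply eq_one_of_fix_us
    intro p hp
    have hQ : Qm p = 1 := by
      simp only [pre6, pre5, pre4, pre3, pre2, pre1, pre0, List.mem_cons, List.not_mem_nil, or_false] at hp
      rcases hp with rfl | rfl | rfl | rfl | rfl | rfl <;> exact us_Q _
    rw [act_mul, ← h p hQ, act_inv]
  have h2 : M = N * (N⁻¹ * M) := by group
  rw [h2, h1, mul_one]

set_option Elab.async false in
theorem exists_refl : ∀ v : Vec, v ≠ 0 → Qm v = 0 → ∃ i : Fin 6, rv (us i) v = v + us i := by decide +kernel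

/-- Transitivity on the nonsingular vectors. -/
theorem exists_us0 {y : Vec} (hy : Qm y = 1) : ∃ N : O6, mt N *ᵥ us 0 = y := by
  have : condY pre0 (us 0) y := by
    intro w hw
    simp only [pre0, spanL, List.mem_singleton] at hw
    subst hw
    simp only [add_zero]
    refine ⟨by rw [hy, us_Q], ?_⟩
    rintro rfl
    have h0 : Qm (0 : Vec) = 0 := by decide +kernel
    rw [h0] at hy
    exact zero_ne_one hy
  obtain ⟨t, _, h1, _⟩ := lvChk_spec (hT0 y) this
  exact ⟨prW t, by rw [prW_act, h1]⟩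

theorem zmod2_cases : ∀ z : ZMod 2, z = 0 ∨ z = 1 := by decide

set_option Elab.async false in
theorem add_add_self' : ∀ a b : Vec, a + b + a = b := by decide +kernel

/-- No normal 2-subgroup. -/
theorem no_normal2 (R : Subgroup O6) (hn : R.Normal) (hp : IsPGroup 2 R) : R = ⊥ := by
  classical
  letI : MulAction R Vec :=
    { smul := fun r v => mt (r : O6) *ᵥ v
      one_smul := fun v => by
        show mt (1 : O6) *ᵥ v = v
        simp [mt_one]
      mul_smul := fun r s v => by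
        show mt ((r : O6) * (s : O6)) *ᵥ v = mt (r : O6) *ᵥ (mt (s : O6) *ᵥ v)
        rw [act_mul] }
  haveI : Fact (Nat.Prime 2) := ⟨Nat.prime_two⟩
  have h0 : (0 : Vec) ∈ MulAction.fixedPoints R Vec := by
    intro r
    exact Matrix.mulVec_zero _
  have hc : 2 ∣ Nat.card Vec := by
    have : Nat.card Vec = 64 := by
      simp [Nat.card_eq_fintype_card, ZMod.card]
    rw [this]; norm_num
  obtain ⟨v, hv, hne⟩ := hp.exists_fixed_point_of_prime_dvd_card_of_fixed_point Vec hc h0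
  -- the fixed vectors
  have hfix : ∀ (x : Vec), x ∈ MulAction.fixedPoints R Vec ↔ ∀ r ∈ R, mt r *ᵥ x = x := by
    intro x
    constructor
    · intro h r hr
      exact h ⟨r, hr⟩
    · intro h r
      exact h r r.2
  have hv' := (hfix v).1 hv
  -- invariance under the group
  have hinv : ∀ (x : Vec) (N : O6), (∀ r ∈ R, mt r *ᵥ x = x) → ∀ r ∈ R, mt r *ᵥ (mt N *ᵥ x) = mt N *ᵥ x := by
    intro x N hx r hr
    have h1 : N⁻¹ * r * N ∈ R := by
      have := hn.conj_mem r hr N⁻¹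
      simpa using this
    have h2 := hx _ h1
    rw [act_mul, act_mul] at h2
    have := congrArg (fun y => mt N *ᵥ y) h2
    simpa only [act_inv'] using this
  have hadd : ∀ x y : Vec, (∀ r ∈ R, mt r *ᵥ x = x) → (∀ r ∈ R, mt r *ᵥ y = y) → ∀ r ∈ R, mt r *ᵥ (x + y) = x + y := by
    intro x y hx hy r hr
    rw [act_add, hx r hr, hy r hr]
  -- a nonsingular fixed vector
  have hQ : Qm v = 0 ∨ Qm v = 1 := zmod2_cases _
  obtain ⟨y, hy, hyQ⟩ : ∃ y : Vec, (∀ r ∈ R, mt r *ᵥ y = y) ∧ Qm y = 1 := by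
    rcases hQ with hQ | hQ
    · obtain ⟨i, hi⟩ := exists_refl v hne.symm hQ
      refine ⟨us i, ?_, us_Q i⟩
      have h1 := hinv v (Rf i) hv'
      rw [mt_Rf, hi] at h1
      have h2 := hadd _ _ h1 hv'
      have e : v + us i + v = us i := add_add_self' _ _
      rwa [e] at h2
    · exact ⟨v, hv', hQ⟩
  -- the first root is fixed
  obtain ⟨N, hN⟩ := exists_us0 hyQ
  have h0 : ∀ r ∈ R, mt r *ᵥ us 0 = us 0 := by
    have h1 := hinv y N⁻¹ hy
    rw [← hN, act_inv] at h1
    exact h1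
  -- all nonsingular vectors are fixed
  have hall : ∀ x : Vec, Qm x = 1 → ∀ r ∈ R, mt r *ᵥ x = x := by
    intro x hx
    obtain ⟨M, hM⟩ := exists_us0 hx
    rw [← hM]
    exact hinv _ M h0
  rw [eq_bot_iff]
  intro r hr
  rw [Subgroup.mem_bot]
  apply eq_one_of_fix_us
  intro p hp
  have hQ : Qm p = 1 := by
    simp only [pre6, pre5, pre4, pre3, pre2, pre1, pre0, List.mem_cons, List.not_mem_nil, or_false] at hp
    rcases hp with rfl | rfl | rfl | rfl | rfl | rfl <;> exact us_Q _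
  exact hall p hQ r hr

end Cfsg.Agent.Lib.Fi22J2
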