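import Mathlib
import Cfsg.Agent.Lib.Fi22J2.O6
import Cfsg.Agent.Lib.Fi22J2.Gen

/-!
# The homomorphism from the centralizer to the isometry group
-/

set_option autoImplicit false
set_option maxRecDepth 1000000
set_option linter.all false

namespace Cfsg.Agent.Lib.Fi22J2

open Matrix
open Cfsg.Agent.Lib.OutTree36 Cfsg.Agent.Lib.TcBits Cfsg.Agent.Lib.TcPres Cfsg.Agent.Lib.PresChain36
open Cfsg.Agent.Lib.TcFacts (sumRange)
open Cfsg.Agent.Lib.Fi22K Cfsg.Agent.Lib.PcClass36
open Cfsg.Agent.TcData.Fi22.I3510 Cfsg.Agent.TcData.Fi22 Cfsg.Agent.TcChain36.Fi22 Cfsg.Agent.TcChain36.Out.Fi22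

/-- The mask of a coordinate. -/
def Cm (i : I6) : ℕ := Ct.getD (idx6 i) 0

/-- The value of a bit. -/
def zb (b : Bool) : ZMod 2 := if b = true then 1 else 0

theorem zb_xor (a b : Bool) : zb (xor a b) = zb a + zb b := by
  cases a <;> cases b <;> decide

/-- The vector of a point. -/
def vq (q : ℕ) : Vec := fun i => zb ((Cm i).testBit q)

/-- An element of the group acting on the blocks through an isometry. -/
def Pg (g : Gq) (N : O6) : Prop :=
  ∀ q, Tm.testBit (Phi g q) = Tm.testBit q ∧ (Tm.testBit q = true → vq (Phi g q) = mt N *ᵥ vq q)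

theorem Pg_one : Pg 1 1 := by
  intro q
  simp [mt_one]

theorem Pg_mul {g h : Gq} {N M : O6} (h1 : Pg g N) (h2 : Pg h M) : Pg (g * h) (N * M) := by
  intro q
  rw [map_mul, Equiv.Perm.mul_apply]
  refine ⟨by rw [(h1 _).1, (h2 _).1], fun hq => ?_⟩
  rw [(h1 _).2 (by rw [(h2 _).1]; exact hq), (h2 _).2 hq, act_mul]

theorem Pg_inv {g : Gq} {N : O6} (h : Pg g N) : Pg g⁻¹ N⁻¹ := by
  intro q
  have h1 := h (Phi g⁻¹ q)
  have e : Phi g (Phi g⁻¹ q) = q := by
    rw [map_inv]; simp
  rw [e] at h1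
  refine ⟨h1.1.symm, fun hq => ?_⟩
  have h2 := h1.2 (by rw [← h1.1]; exact hq)
  rw [h2, act_inv]

/-- The image of a coordinate, as a mask. -/
def colM (t : List (Fin 6)) (i : I6) : ℕ :=
  (if actW t (Pi.single (.inl (.inl 0)) 1) i = 1 then Cm (.inl (.inl 0)) else 0) ^^^
  (if actW t (Pi.single (.inl (.inl 1)) 1) i = 1 then Cm (.inl (.inl 1)) else 0) ^^^
  (if actW t (Pi.single (.inl (.inr 0)) 1) i = 1 then Cm (.inl (.inr 0)) else 0) ^^^
  (if actW t (Pi.single (.inl (.inr 1)) 1) i = 1 then Cm (.inl (.inr 1)) else 0) ^^^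
  (if actW t (Pi.single (.inr 0) 1) i = 1 then Cm (.inr 0) else 0) ^^^
  (if actW t (Pi.single (.inr 1) 1) i = 1 then Cm (.inr 1) else 0)

theorem term_spec (a : ZMod 2) (m q : ℕ) : zb ((if a = 1 then m else 0).testBit q) = a * zb (m.testBit q) := by
  rcases zmod2_cases a with rfl | rfl
  · simp [zb]
  · simp

theorem colM_spec (t : List (Fin 6)) (i : I6) (q : ℕ) : zb ((colM t i).testBit q) = actW t (vq q) i := by
  rw [← prW_act]
  have e : ∀ j : I6, actW t (Pi.single j 1) i = mt (prW t) i j := by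
    intro j
    rw [← prW_act, Matrix.mulVec_single_one]
    rfl
  have h2 : (mt (prW t) *ᵥ vq q) i = mt (prW t) i (.inl (.inl 0)) * vq q (.inl (.inl 0)) +
      mt (prW t) i (.inl (.inl 1)) * vq q (.inl (.inl 1)) + mt (prW t) i (.inl (.inr 0)) * vq q (.inl (.inr 0)) +
      mt (prW t) i (.inl (.inr 1)) * vq q (.inl (.inr 1)) + mt (prW t) i (.inr 0) * vq q (.inr 0) +
      mt (prW t) i (.inr 1) * vq q (.inr 1) := by
    simp only [Matrix.mulVec, dotProduct, Fintype.sum_sum_type, Fin.sum_univ_two]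
    ring
  rw [h2]
  unfold colM
  simp only [Nat.testBit_xor, zb_xor, term_spec, e]
  rfl

/-- The test of a word. -/
def chkW (w : List ℕ) (t : List (Fin 6)) : Prop :=
  wa w Tm = Tm ∧ ∀ i : I6, Nat.land (wa w (Cm i)) Tm = Nat.land (colM t i) Tm

instance (w : List ℕ) (t : List (Fin 6)) : Decidable (chkW w t) := by
  unfold chkW; infer_instance

theorem Pg_word {w : List ℕ} {t : List (Fin 6)} (h : chkW w t) : Pg (gv w) (prW t) := by
  intro q
  have h1 : Tm.testBit (Phi (gv w) q) = Tm.testBit q := by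
    rw [← hwa2, h.1]
  refine ⟨h1, fun hq => ?_⟩
  rw [prW_act]
  funext i
  rw [← colM_spec]
  have h2 := h.2 i
  have h3 : (Nat.land (wa w (Cm i)) Tm).testBit q = (Nat.land (colM t i) Tm).testBit q := by rw [h2]
  have e : ∀ x y : ℕ, (Nat.land x y).testBit q = (x.testBit q && y.testBit q) := fun x y => Nat.testBit_and x y q
  rw [e, e, hq, Bool.and_true, Bool.and_true, hwa2] at h3
  show zb _ = _
  rw [h3]

theorem exists_of_mem_zip {α β : Type*} : ∀ {l : List α} {m : List β}, l.length = m.length → ∀ {a : α}, a ∈ l →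
    ∃ b, (a, b) ∈ l.zip m
  | [], [], _, _, ha => by simp at ha
  | x :: l, y :: m, hlen, a, ha => by
    rcases List.mem_cons.mp ha with rfl | ha'
    · exact ⟨y, by simp⟩
    · obtain ⟨b, hb⟩ := exists_of_mem_zip (l := l) (m := m) (by simpa using hlen) ha'
      exact ⟨b, by simp [hb]⟩

set_option Elab.async false in
theorem hP2 : ∀ x ∈ gW2.zip tW2, chkW x.1 x.2 := by decide +kernel

set_option Elab.async false in
theorem hl2 : gW2.length = tW2.length := by decide +kernel

theorem ex2 {w : List ℕ} (hw : w ∈ gW2) : ∃ N, Pg (gv w) N := by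
  obtain ⟨t, ht⟩ := exists_of_mem_zip hl2 hw
  exact ⟨prW t, Pg_word (hP2 _ ht)⟩

set_option Elab.async false in
theorem hP3 : ∀ x ∈ gW3.zip tW3, chkW x.1 x.2 := by decide +kernel

set_option Elab.async false in
theorem hl3 : gW3.length = tW3.length := by decide +kernel

theorem ex3 {w : List ℕ} (hw : w ∈ gW3) : ∃ N, Pg (gv w) N := by
  obtain ⟨t, ht⟩ := exists_of_mem_zip hl3 hw
  exact ⟨prW t, Pg_word (hP3 _ ht)⟩

set_option Elab.async false in
theorem hP4 : ∀ x ∈ gW4.zip tW4, chkW x.1 x.2 := by decide +kernel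

set_option Elab.async false in
theorem hl4 : gW4.length = tW4.length := by decide +kernel

theorem ex4 {w : List ℕ} (hw : w ∈ gW4) : ∃ N, Pg (gv w) N := by
  obtain ⟨t, ht⟩ := exists_of_mem_zip hl4 hw
  exact ⟨prW t, Pg_word (hP4 _ ht)⟩

set_option Elab.async false in
theorem hP5 : ∀ x ∈ gW5.zip tW5, chkW x.1 x.2 := by decide +kernel

set_option Elab.async false in
theorem hl5 : gW5.length = tW5.length := by decide +kernel

theorem ex5 {w : List ℕ} (hw : w ∈ gW5) : ∃ N, Pg (gv w) N := by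
  obtain ⟨t, ht⟩ := exists_of_mem_zip hl5 hw
  exact ⟨prW t, Pg_word (hP5 _ ht)⟩

set_option Elab.async false in
theorem hP6 : ∀ x ∈ gW6.zip tW6, chkW x.1 x.2 := by decide +kernel

set_option Elab.async false in
theorem hl6 : gW6.length = tW6.length := by decide +kernel

theorem ex6 {w : List ℕ} (hw : w ∈ gW6) : ∃ N, Pg (gv w) N := by
  obtain ⟨t, ht⟩ := exists_of_mem_zip hl6 hw
  exact ⟨prW t, Pg_word (hP6 _ ht)⟩

set_option Elab.async false in
theorem hP7 : ∀ x ∈ gW7.zip tW7, chkW x.1 x.2 := by decide +kernel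

set_option Elab.async false in
theorem hl7 : gW7.length = tW7.length := by decide +kernel

theorem ex7 {w : List ℕ} (hw : w ∈ gW7) : ∃ N, Pg (gv w) N := by
  obtain ⟨t, ht⟩ := exists_of_mem_zip hl7 hw
  exact ⟨prW t, Pg_word (hP7 _ ht)⟩

set_option Elab.async false in
theorem hP8 : ∀ x ∈ gW8.zip tW8, chkW x.1 x.2 := by decide +kernel

set_option Elab.async false in
theorem hl8 : gW8.length = tW8.length := by decide +kernel

theorem ex8 {w : List ℕ} (hw : w ∈ gW8) : ∃ N, Pg (gv w) N := by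
  obtain ⟨t, ht⟩ := exists_of_mem_zip hl8 hw
  exact ⟨prW t, Pg_word (hP8 _ ht)⟩

set_option Elab.async false in
theorem hPsw : chkW swW [0] := by decide +kernel

theorem exists_N {g : Gq} (hg : g ∈ XX) : ∃ N, Pg g N := by
  rw [XX_eq] at hg
  induction hg using Subgroup.closure_induction with
  | mem x hx =>
    obtain ⟨w, hw, rfl⟩ := hx
    simp only [cW, List.mem_append, List.mem_singleton] at hw
    rcases hw with ((((((hw | hw) | hw) | hw) | hw) | hw) | hw) | hw
    · exact ex2 hw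
    · exact ex3 hw
    · exact ex4 hw
    · exact ex5 hw
    · exact ex6 hw
    · exact ex7 hw
    · exact ex8 hw
    · subst hw
      exact ⟨_, Pg_word hPsw⟩
  | one => exact ⟨1, Pg_one⟩
  | mul x y _ _ hx hy =>
    obtain ⟨N, hN⟩ := hx
    obtain ⟨M, hM⟩ := hy
    exact ⟨N * M, Pg_mul hN hM⟩
  | inv x _ hx =>
    obtain ⟨N, hN⟩ := hx
    exact ⟨N⁻¹, Pg_inv hN⟩

set_option Elab.async false in
theorem vq_rep : ∀ v : Vec, Qm v = 1 → Tm.testBit (rpT.getD (ev6 v) 0) = true ∧ vq (rpT.getD (ev6 v) 0) = v := by decide +kernel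

theorem Pg_uniq {g : Gq} {N M : O6} (h1 : Pg g N) (h2 : Pg g M) : N = M := by
  apply eq_of_ns
  intro v hv
  obtain ⟨h3, h4⟩ := vq_rep v hv
  have h5 := (h1 _).2 h3
  have h6 := (h2 _).2 h3
  rw [h4] at h5 h6
  rw [← h5, h6]

/-- The function. -/
noncomputable def psiF (g : XX) : O6 := Classical.choose (exists_N g.2)

theorem psiF_spec (g : XX) : Pg (g : Gq) (psiF g) := Classical.choose_spec (exists_N g.2)

/-- The homomorphism. -/
noncomputable def psi : XX →* O6 :=
  MonoidHom.mk' psiF fun a b => Pg_uniq (psiF_spec (a * b)) (Pg_mul (psiF_spec a) (psiF_spec b))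

theorem psi_spec (g : XX) : Pg (g : Gq) (psi g) := psiF_spec g

theorem psi_eq {g : XX} {N : O6} (h : Pg (g : Gq) N) : psi g = N := Pg_uniq (psi_spec g) h

set_option Elab.async false in
theorem xW_letters : ∀ i : Fin 6, letters (xW.getD i []) = true := by decide +kernel

set_option Elab.async false in
theorem xW_comm : ∀ i : Fin 6, eqB ap bsL (xW.getD i [] ++ [0, 2]) ([0, 2] ++ xW.getD i []) = true := by decide +kernel

set_option Elab.async false in
theorem xW_P : ∀ i : Fin 6, chkW (xW.getD i []) [i] := by decide +kernel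

theorem prW_single (i : Fin 6) : prW [i] = Rf i := by simp [prW]

theorem psi_surj : Function.Surjective psi := by
  rw [← MonoidHom.range_eq_top, eq_top_iff]
  have h1 : SR ≤ psi.range := by
    rw [SR, Subgroup.closure_le]
    rintro _ ⟨i, rfl⟩
    refine ⟨⟨gv (xW.getD i []), mem_XX_of (xW_letters i) (xW_comm i)⟩, psi_eq ?_⟩
    have := Pg_word (xW_P i)
    rwa [prW_single] at this
  rw [SR_top] at h1
  exact h1

theorem card_ker_psi : Nat.card psi.ker = 1024 := by
  have h1 := Subgroup.card_mul_index psi.ker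
  rw [Subgroup.index_ker, MonoidHom.range_eq_top.mpr psi_surj, Subgroup.card_top, card_O6, card_XX] at h1
  omega

end Cfsg.Agent.Lib.Fi22J2
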