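import Mathlib
import Cfsg.Agent.Lib.Fi22J2.Psi
import Cfsg.Agent.Lib.UnitaryOmega
import Cfsg.Agent.Lib.AutPSU.Count
import Cfsg.Agent.Lib.F4K

/-!
# The isometry group of the elliptic form in dimension 6 over `F₂` is the automorphism group of `PSU₄(2)`

The proof counts: `Ω` has index two in `O`, it has trivial centre and it is the simple group `PSU₄(2)`;
the conjugation action is faithful because `O` has no normal 2-subgroup; the orders agree.
-/

set_option autoImplicit false
set_option maxRecDepth 100000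
set_option linter.all false

namespace Cfsg.Agent.Lib.Fi22J2

open Cfsg.Agent.Lib.F4K

/-- The subgroup of index 2. -/
noncomputable def AO : Subgroup O6 := (K0.subgroupOf XX).map psi

theorem ker_le_K0 (h : psi.ker ≤ K0.subgroupOf XX) : AO.index = 2 := by
  rw [AO, Subgroup.index_map, sup_eq_left.2 h, index_K0, MonoidHom.range_eq_top.2 psi_surj, Subgroup.index_top]

theorem comm_le_of_index_two (H : Subgroup O6) (hi : H.index = 2) : commutator O6 ≤ H := by
  haveI : H.Normal := Subgroup.normal_of_index_eq_two hi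
  rw [← Subgroup.Normal.quotient_commutative_iff_commutator_le]
  haveI : Fact (Nat.Prime (Nat.card (O6 ⧸ H))) := ⟨by
    rw [show Nat.card (O6 ⧸ H) = 2 from hi]; exact Nat.prime_two⟩
  haveI : IsCyclic (O6 ⧸ H) := isCyclic_of_prime_card rfl
  exact IsCyclic.commutative

theorem card_PSU42 : Nat.card (Cfsg.PSU 4 K4 2) = 25920 := by
  have h := Cfsg.Agent.Lib.UnitarySU.card_PSU (F := K4) (q := 2) (by rw [K4.card_K4]; rfl) 4 (by norm_num)
  norm_num [Finset.prod_range_succ] at h
  omega

/-- The simple group. -/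
abbrev OM := Cfsg.Omega (ZMod 2) Qm

theorem exists_PO : Nonempty (Cfsg.POmega (ZMod 2) Qm ≃* Cfsg.PSU 4 K4 2) := by
  refine Cfsg.Agent.Lib.UnitaryOmega.pomega_six_minus (F := ZMod 2) (K := K4) (q := 2) (by simp [ZMod.card])
    (by rw [K4.card_K4]; rfl) 1 1 (by decide)

theorem OM_le (h : psi.ker ≤ K0.subgroupOf XX) : OM ≤ AO := comm_le_of_index_two _ (ker_le_K0 h)

theorem card_AO (h : psi.ker ≤ K0.subgroupOf XX) : Nat.card AO = 25920 := by
  have h1 := Subgroup.index_mul_card AO
  rw [ker_le_K0 h, card_O6] at h1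
  omega

theorem card_OM_aux (h : psi.ker ≤ K0.subgroupOf XX) :
    Nat.card OM = 25920 ∧ Nat.card (Subgroup.center OM) = 1 := by
  obtain ⟨i⟩ := exists_PO
  have h1 : Nat.card (Cfsg.POmega (ZMod 2) Qm) = 25920 := by
    rw [Nat.card_congr i.toEquiv, card_PSU42]
  have h2 := Subgroup.card_eq_card_quotient_mul_card_subgroup (Subgroup.center OM)
  rw [h1] at h2
  have h3 : Nat.card OM ≤ Nat.card AO := Nat.card_le_card_of_injective _ (Subgroup.inclusion_injective (OM_le h))
  rw [card_AO h] at h3
  have h4 : 0 < Nat.card (Subgroup.center OM) := Nat.card_pos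
  constructor <;> nlinarith

/-- The simple group as the quotient. -/
noncomputable def OMequiv (h : Subgroup.center OM = ⊥) : OM ≃* Cfsg.POmega (ZMod 2) Qm :=
  MulEquiv.ofBijective (QuotientGroup.mk' (Subgroup.center OM)) ⟨by
    rw [← MonoidHom.ker_eq_bot_iff, QuotientGroup.ker_mk', h], QuotientGroup.mk'_surjective _⟩

theorem O6_aut (h : psi.ker ≤ K0.subgroupOf XX) : Nonempty (O6 ≃* MulAut (Cfsg.PSU 4 K4 2)) := by
  classical
  obtain ⟨h1, h2⟩ := card_OM_aux h
  have hZ : Subgroup.center OM = ⊥ := Subgroup.eq_bot_of_card_eq _ h2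
  obtain ⟨i⟩ := exists_PO
  let j : OM ≃* Cfsg.PSU 4 K4 2 := (OMequiv hZ).trans i
  -- the quotient has order two
  have hi : OM.index = 2 := by
    have h3 := Subgroup.index_mul_card OM
    rw [h1, card_O6] at h3
    omega
  let c : O6 →* MulAut OM := MulAut.conjNormal
  have hN : c.ker = ⊥ := by
    apply no_normal2 _ inferInstance
    intro x
    refine ⟨1, ?_⟩
    have hx2 : ((x : O6)) ^ 2 ∈ OM := by
      haveI : OM.Normal := inferInstance
      have := Subgroup.sq_mem_of_index_two hi (x : O6)
      exact this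
    have hcen : (⟨(x : O6) ^ 2, hx2⟩ : OM) ∈ Subgroup.center OM := by
      rw [Subgroup.mem_center_iff]
      intro g
      have hx : c (x : O6) = 1 := x.2
      have hg : c (x : O6) g = g := by rw [hx]; rfl
      have hg' : (x : O6) * (g : O6) * (x : O6)⁻¹ = g := by
        have := congrArg (Subtype.val) hg
        simpa [c, MulAut.conjNormal_apply] using this
      apply Subtype.ext
      show (g : O6) * ((x : O6) ^ 2) = ((x : O6) ^ 2) * (g : O6)
      have hg2 : (x : O6) * (g : O6) = (g : O6) * (x : O6) := by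
        rw [mul_inv_eq_iff_eq_mul] at hg'
        exact hg'
      rw [pow_two, ← mul_assoc, ← hg2, mul_assoc, ← hg2, mul_assoc]
    rw [hZ, Subgroup.mem_bot] at hcen
    apply Subtype.ext
    have := congrArg Subtype.val hcen
    simpa [pow_one] using this
  have hinj : Function.Injective c := by
    rw [← MonoidHom.ker_eq_bot_iff]; exact hN
  have hcard : Nat.card (MulAut OM) = 51840 := by
    rw [Nat.card_congr (MulAut.congr j).toEquiv,
      Cfsg.Agent.Lib.AutPSU.card_aut (F := K4) (q := 2) (n := 4) (p := 2) (f := 1) (hp := ⟨Nat.prime_two⟩) (by rw [K4.card_K4]; rfl) le_rfl (by norm_num) (by norm_num) (by norm_num), card_PSU42]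
    norm_num
  have hb : Function.Bijective c := hinj.bijective_of_nat_card_le (by rw [hcard, card_O6])
  exact ⟨(MulEquiv.ofBijective c hb).trans (MulAut.congr j)⟩

end Cfsg.Agent.Lib.Fi22J2
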