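import Mathlib
import Cfsg.Agent.Lib.Fi22J2.Psi
import Cfsg.Agent.Lib.CharTwoLocal
import Cfsg.Agent.Lib.LargeQuot
import Cfsg.Agent.Lib.LargePair
import Cfsg.Agent.Lib.Fi22K6
import Cfsg.Prelude.Def_FischerSpaces

/-!
# The normal 2-subgroup of the centralizer
-/

set_option autoImplicit false
set_option maxRecDepth 1000000
set_option linter.all false

namespace Cfsg.Agent.Lib.Fi22J2

open scoped Matrix
open Cfsg.Agent.Lib.OutTree36 Cfsg.Agent.Lib.TcBits Cfsg.Agent.Lib.TcPres Cfsg.Agent.Lib.PresChain36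
open Cfsg.Agent.Lib.TcFacts (sumRange)
open Cfsg.Agent.Lib.Fi22K Cfsg.Agent.Lib.PcClass36
open Cfsg.Agent.TcData.Fi22.I3510 Cfsg.Agent.TcData.Fi22 Cfsg.Agent.TcChain36.Fi22 Cfsg.Agent.TcChain36.Out.Fi22

/-- The generators of the hyperplane. -/
def e1L : List (List ℕ) := [0, 2] :: eW

/-- All the generators. -/
def eAll : List (List ℕ) := [0] :: e1L

/-- The normal 2-subgroup. -/
noncomputable def EE : Subgroup Gq := Subgroup.closure {x | ∃ w ∈ eAll, x = gv w}

/-- The hyperplane. -/
noncomputable def E1 : Subgroup Gq := Subgroup.closure {x | ∃ w ∈ e1L, x = gv w}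

/-- The first transposition. -/
noncomputable def aa1 : Gq := gv [0]

theorem aa1_eq : aa1 = Lt 0 := by
  rw [aa1, gv_cons, gv_nil, mul_one, Lt_eq (by norm_num)]

theorem aa1_sq : aa1 * aa1 = 1 := by
  rw [aa1_eq]
  exact sq_of_D0 Lt0_mem

theorem jj_sq : jj * jj = 1 := by
  have h0 : Lt 0 * Lt 0 = 1 := sq_of_D0 Lt0_mem
  have h2 : Lt 2 * Lt 2 = 1 := sq_of_D0 Lt2_mem
  calc jj * jj = Lt 0 * Lt 2 * (Lt 0 * Lt 2) := rfl
    _ = Lt 0 * (Lt 2 * Lt 0) * Lt 2 := by group
    _ = Lt 0 * (Lt 0 * Lt 2) * Lt 2 := by rw [Lt02_comm]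
    _ = (Lt 0 * Lt 0) * (Lt 2 * Lt 2) := by group
    _ = 1 := by rw [h0, h2]; group

theorem E1_le_EE : E1 ≤ EE := by
  apply Subgroup.closure_mono
  rintro _ ⟨w, hw, rfl⟩
  exact ⟨w, List.mem_cons_of_mem _ hw, rfl⟩

theorem aa1_mem : aa1 ∈ EE := Subgroup.subset_closure ⟨[0], by simp [eAll], rfl⟩

theorem jj_mem_E1 : jj ∈ E1 := Subgroup.subset_closure ⟨[0, 2], by simp [e1L], jj_eq⟩

set_option Elab.async false in
theorem eAll_letters : ∀ w ∈ eAll, letters w = true := by decide +kernel

set_option Elab.async false in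
theorem eAll_comm : ∀ w ∈ eAll, eqB ap bsL (w ++ [0, 2]) ([0, 2] ++ w) = true := by decide +kernel

set_option Elab.async false in
theorem eAll_P : ∀ w ∈ eAll, chkW w [] := by decide +kernel

theorem prW_nil : prW [] = 1 := rfl

theorem Pg_word0 {w : List ℕ} (h : chkW w []) : Pg (gv w) 1 := by
  have := Pg_word h
  rwa [prW_nil] at this

theorem EE_le_XX : EE ≤ XX := by
  rw [EE, Subgroup.closure_le]
  rintro _ ⟨w, hw, rfl⟩
  exact mem_XX_of (eAll_letters w hw) (eAll_comm w hw)

theorem EE_Pg {x : Gq} (hx : x ∈ EE) : Pg x 1 := by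
  induction hx using Subgroup.closure_induction with
  | mem x hx =>
    obtain ⟨w, hw, rfl⟩ := hx
    exact Pg_word0 (eAll_P w hw)
  | one => exact Pg_one
  | mul x y _ _ hx hy => simpa using Pg_mul hx hy
  | inv x _ hx => simpa using Pg_inv hx

theorem EE_le_ker : EE.subgroupOf XX ≤ psi.ker := by
  intro x hx
  rw [MonoidHom.mem_ker]
  exact psi_eq (EE_Pg hx)

set_option Elab.async false in
theorem grA : growS wa eAll 1 (2 ^ q0) = Am := by decide +kernel

set_option Elab.async false in
theorem grA1 : growS wa e1L 1 (2 ^ q0) = Am := by decide +kernel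

theorem Am_lt : Am < 2 ^ 2 ^ 12 := by decide +kernel

theorem Am_cnt : sumRange Am.testBit 12 0 = 512 := by decide +kernel

theorem aa1_ne : aa1 ≠ 1 := by
  rw [aa1_eq]
  intro h
  have h1 : Lt 0 * Lt 2 = Lt 2 * Lt 0 := Lt02_comm
  have h2 := (comm_iff_fix Lt0_pq' Lt2_pq).1
  have h3 : Phi (Lt 0) 1 = 1 := by rw [h]; simp
  rw [ap_eq (by norm_num)] at h3
  revert h3
  decide +kernel

theorem jj_ne : jj ≠ 1 := by
  intro h
  have h3 : Phi jj 1 = 1 := by rw [h]; simp
  rw [jj_eq, Phi_gv (by decide) (by norm_num)] at h3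
  revert h3
  decide +kernel

set_option Elab.async false in
theorem fa_q0 : wa [0] (2 ^ q0) = 2 ^ q0 := by decide +kernel

theorem card_EE_ge : 1024 ≤ Nat.card EE := by
  have h1 : 512 * Nat.card ↥(EE ⊓ ptStab Phi [q0]) ≤ Nat.card EE := by
    refine card_step_gen (Φ := Phi) (b := q0) (M := Am) (k := 12) ?_ inf_le_left ?_ Am_lt Am_cnt
    · rw [← grA]
      refine sound_growS ?_ 1 _ (sound_single _ _)
      intro g hg
      exact Subgroup.subset_closure ⟨g, hg, rfl⟩
    · intro x hx
      exact hx.2 q0 (by simp)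
  have h2 : 2 ≤ Nat.card ↥(EE ⊓ ptStab Phi [q0]) := by
    have hm : aa1 ∈ EE ⊓ ptStab Phi [q0] := by
      refine ⟨aa1_mem, ?_⟩
      intro b hb
      simp only [List.mem_singleton] at hb
      subst hb
      exact fix_of_wa fa_q0
    haveI : Nontrivial ↥(EE ⊓ ptStab Phi [q0]) := ⟨⟨⟨aa1, hm⟩, 1, fun h => aa1_ne (congrArg Subtype.val h)⟩⟩
    exact Finite.one_lt_card
  omega

theorem EE_eq_ker : EE.subgroupOf XX = psi.ker := by
  apply Subgroup.eq_of_le_of_card_ge EE_le_ker
  rw [card_ker_psi, Nat.card_congr (Subgroup.subgroupOfEquivOfLe EE_le_XX).toEquiv]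
  exact card_EE_ge

theorem card_EE : Nat.card EE = 1024 := by
  rw [← card_ker_psi, ← EE_eq_ker]
  exact (Nat.card_congr (Subgroup.subgroupOfEquivOfLe EE_le_XX).toEquiv).symm

/-- Elements acting trivially on the blocks. -/
theorem mem_EE_of {x : Gq} (hx : x ∈ XX) (h : Pg x 1) : x ∈ EE := by
  have h1 : (⟨x, hx⟩ : XX) ∈ psi.ker := by
    rw [MonoidHom.mem_ker]
    exact psi_eq h
  rw [← EE_eq_ker] at h1
  exact h1

/-! ### Squares and commutators -/

/-- The central subgroup. -/
noncomputable def Zj : Subgroup Gq := Subgroup.zpowers jj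

theorem mem_Zj {x : Gq} : x ∈ Zj ↔ x = 1 ∨ x = jj := by
  constructor
  · intro h
    obtain ⟨k, rfl⟩ := Subgroup.mem_zpowers_iff.mp h
    have hjj : jj ^ (2 : ℤ) = 1 := by
      rw [zpow_two]; exact jj_sq
    have h2 : jj ^ k = jj ^ (k % 2) := by
      conv_lhs => rw [← Int.mul_ediv_add_emod k 2, zpow_add, zpow_mul, hjj, one_zpow, one_mul]
    have h3 : k % 2 = 0 ∨ k % 2 = 1 := by omega
    rcases h3 with h3 | h3
    · left; rw [h2, h3, zpow_zero]
    · right; rw [h2, h3, zpow_one]
  · rintro (rfl | rfl)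
    · exact Zj.one_mem
    · exact Subgroup.mem_zpowers _

/-- Inverses of words. -/
theorem gv_inv : ∀ w : List ℕ, (gv w)⁻¹ = gv w.reverse
  | [] => by simp [gv_nil]
  | a :: w => by
    rw [gv_cons, mul_inv_rev, gv_inv w, List.reverse_cons, gv_append, gv_cons, gv_nil, mul_one]
    congr 1
    exact (hiv0 a).symm

/-- Words in the central subgroup. -/
noncomputable def inZ (w : List ℕ) : Bool := eqB ap bsL w [] || eqB ap bsL w [0, 2]

theorem inZ_sound {w : List ℕ} (h1 : letters w = true) (h2 : inZ w = true) : gv w ∈ Zj := by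
  rw [inZ, Bool.or_eq_true] at h2
  rw [mem_Zj]
  rcases h2 with h2 | h2
  · left
    exact gv_eq_of h1 rfl h2
  · right
    rw [jj_eq]
    exact gv_eq_of h1 (by decide) h2

/-- The test of a pair. -/
noncomputable def cmT (u : List ℕ) : Bool :=
  eAll.all fun w => letters (u ++ w ++ u.reverse ++ w.reverse) && inZ (u ++ w ++ u.reverse ++ w.reverse)

set_option Elab.async false in
theorem cm0 : cmT (eAll.getD 0 []) = true := by decide +kernel
set_option Elab.async false in
theorem cm1 : cmT (eAll.getD 1 []) = true := by decide +kernel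
set_option Elab.async false in
theorem cm2 : cmT (eAll.getD 2 []) = true := by decide +kernel
set_option Elab.async false in
theorem cm3 : cmT (eAll.getD 3 []) = true := by decide +kernel
set_option Elab.async false in
theorem cm4 : cmT (eAll.getD 4 []) = true := by decide +kernel
set_option Elab.async false in
theorem cm5 : cmT (eAll.getD 5 []) = true := by decide +kernel
set_option Elab.async false in
theorem cm6 : cmT (eAll.getD 6 []) = true := by decide +kernel
set_option Elab.async false in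
theorem cm7 : cmT (eAll.getD 7 []) = true := by decide +kernel
set_option Elab.async false in
theorem cm8 : cmT (eAll.getD 8 []) = true := by decide +kernel
set_option Elab.async false in
theorem cm9 : cmT (eAll.getD 9 []) = true := by decide +kernel

theorem eAll_eq : eAll = [eAll.getD 0 [], eAll.getD 1 [], eAll.getD 2 [], eAll.getD 3 [], eAll.getD 4 [], eAll.getD 5 [],
    eAll.getD 6 [], eAll.getD 7 [], eAll.getD 8 [], eAll.getD 9 []] := by decide +kernel

theorem eAll_cmT : ∀ u ∈ eAll, cmT u = true := by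
  rw [eAll_eq]
  intro u hu
  simp only [List.mem_cons, List.not_mem_nil, or_false] at hu
  rcases hu with rfl | rfl | rfl | rfl | rfl | rfl | rfl | rfl | rfl | rfl
  · exact cm0
  · exact cm1
  · exact cm2
  · exact cm3
  · exact cm4
  · exact cm5
  · exact cm6
  · exact cm7
  · exact cm8
  · exact cm9

theorem eAll_cm : ∀ u ∈ eAll, ∀ w ∈ eAll, letters (u ++ w ++ u.reverse ++ w.reverse) = true ∧
    inZ (u ++ w ++ u.reverse ++ w.reverse) = true := by
  intro u hu w hw
  have := eAll_cmT u hu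
  unfold cmT at this
  rw [List.all_eq_true] at this
  exact Bool.and_eq_true_iff.mp (this w hw)

set_option Elab.async false in
theorem eAll_sq : ∀ u ∈ eAll, letters (u ++ u) = true ∧ inZ (u ++ u) = true := by decide +kernel

theorem conj_Zj {x e : Gq} (hx : x ∈ XX) (he : e ∈ Zj) : x * e * x⁻¹ = e := by
  rcases mem_Zj.1 he with rfl | rfl
  · group
  · rw [mem_XX.1 hx]; group

theorem EE_comm_sq : (∀ x ∈ EE, ∀ y ∈ EE, x * y * x⁻¹ * y⁻¹ ∈ Zj) ∧ ∀ x ∈ EE, x ^ 2 ∈ Zj := by
  apply Cfsg.Agent.Lib.LargePair.comm_sq_of_closure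
  · rintro _ ⟨w, hw, rfl⟩ e he
    have hx : gv w ∈ XX := mem_XX_of (eAll_letters w hw) (eAll_comm w hw)
    refine ⟨by rw [conj_Zj hx he]; exact he, ?_⟩
    have := conj_Zj (XX.inv_mem hx) he
    rw [inv_inv] at this
    rw [this]; exact he
  · rintro _ ⟨u, hu, rfl⟩ _ ⟨w, hw, rfl⟩
    obtain ⟨h1, h2⟩ := eAll_cm u hu w hw
    have := inZ_sound h1 h2
    rwa [gv_append, gv_append, gv_append, ← gv_inv, ← gv_inv] at this
  · rintro _ ⟨u, hu, rfl⟩
    obtain ⟨h1, h2⟩ := eAll_sq u hu
    have := inZ_sound h1 h2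
    rwa [gv_append, ← pow_two] at this

set_option Elab.async false in
theorem eAll_a : ∀ w ∈ eAll, eqB ap bsL (w ++ [0]) ([0] ++ w) = true := by decide +kernel

theorem aa1_central {x : Gq} (hx : x ∈ EE) : x * aa1 = aa1 * x := by
  induction hx using Subgroup.closure_induction with
  | mem x hx =>
    obtain ⟨w, hw, rfl⟩ := hx
    have h1 : letters (w ++ [0]) = true := by
      have := eAll_letters w hw
      simpa [letters] using this
    have h2 : letters ([0] ++ w) = true := by
      have := eAll_letters w hw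
      simpa [letters] using this
    have := gv_eq_of h1 h2 (eAll_a w hw)
    rwa [gv_append, gv_append] at this
  | one => simp
  | mul x y _ _ hx hy =>
    calc x * y * aa1 = x * (y * aa1) := by group
      _ = x * (aa1 * y) := by rw [hy]
      _ = (x * aa1) * y := by group
      _ = (aa1 * x) * y := by rw [hx]
      _ = _ := by group
  | inv x _ hx =>
    calc x⁻¹ * aa1 = x⁻¹ * aa1 * (x * x⁻¹) := by group
      _ = x⁻¹ * (aa1 * x) * x⁻¹ := by group
      _ = x⁻¹ * (x * aa1) * x⁻¹ := by rw [hx]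
      _ = _ := by group

/-! ### The hyperplane -/

set_option Elab.async false in
theorem e1_H : ∀ w ∈ e1L, wa w Hm = Hm := by decide +kernel

theorem E1_H {x : Gq} (hx : x ∈ E1) : ∀ q, Hm.testBit (Phi x q) = Hm.testBit q := by
  induction hx using Subgroup.closure_induction with
  | mem x hx =>
    obtain ⟨w, hw, rfl⟩ := hx
    intro q
    rw [← hwa2, e1_H w hw]
  | one => simp
  | mul x y _ _ hx hy =>
    intro q
    rw [map_mul, Equiv.Perm.mul_apply, hx, hy]
  | inv x _ hx =>
    intro q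
    rw [← hx (Phi x⁻¹ q)]
    simp

set_option Elab.async false in
theorem a_H : (Hm.testBit p0 = true) ∧ (wa [0] Hm).testBit p0 = false := by decide +kernel

theorem aa1_notMem : aa1 ∉ E1 := by
  intro h
  have h1 := E1_H h p0
  rw [a_H.1, aa1, ← hwa2, a_H.2] at h1
  exact Bool.false_ne_true h1

theorem card_E1_ge : 512 ≤ Nat.card E1 := by
  have h1 : 512 * Nat.card (⊥ : Subgroup Gq) ≤ Nat.card E1 := by
    refine card_step_gen (Φ := Phi) (b := q0) (M := Am) (k := 12) ?_ bot_le ?_ Am_lt Am_cnt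
    · rw [← grA1]
      refine sound_growS ?_ 1 _ (sound_single _ _)
      intro g hg
      exact Subgroup.subset_closure ⟨g, hg, rfl⟩
    · intro x hx
      rw [Subgroup.mem_bot.mp hx]
      simp
  simpa using h1

/-- The sign. -/
noncomputable def pw (ε : Multiplicative (ZMod 2)) : Gq := if Multiplicative.toAdd ε = 0 then 1 else aa1

theorem pw_mem (ε : Multiplicative (ZMod 2)) : pw ε ∈ EE := by
  unfold pw
  split_ifs
  · exact EE.one_mem
  · exact aa1_mem

theorem zmod2_cases' : ∀ x : Multiplicative (ZMod 2), Multiplicative.toAdd x = 0 ∨ Multiplicative.toAdd x = 1 := by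
  intro x
  exact zmod2_cases _

theorem pw_mul (x y : Multiplicative (ZMod 2)) : pw (x * y) = pw x * pw y := by
  have hadd : Multiplicative.toAdd (x * y) = Multiplicative.toAdd x + Multiplicative.toAdd y := rfl
  unfold pw
  rw [hadd]
  rcases zmod2_cases' x with hx | hx <;> rcases zmod2_cases' y with hy | hy <;> rw [hx, hy]
  · simp
  · simp
  · simp
  · have h2 : (1 : ZMod 2) + 1 = 0 := by decide
    rw [h2]
    simp [aa1_sq]

/-- The homomorphism from the product. -/
noncomputable def prodMap : Multiplicative (ZMod 2) × E1 →* EE where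
  toFun t := ⟨pw t.1 * t.2, EE.mul_mem (pw_mem _) (E1_le_EE t.2.2)⟩
  map_one' := by
    apply Subtype.ext
    show pw 1 * 1 = 1
    have : Multiplicative.toAdd (1 : Multiplicative (ZMod 2)) = 0 := rfl
    simp [pw, this]
  map_mul' := by
    rintro ⟨x, a⟩ ⟨y, b⟩
    apply Subtype.ext
    show pw (x * y) * ((a : Gq) * b) = pw x * a * (pw y * b)
    rw [pw_mul]
    have hc : (a : Gq) * pw y = pw y * a := by
      unfold pw
      split_ifs
      · simp
      · exact aa1_central (E1_le_EE a.2)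
    calc pw x * pw y * ((a : Gq) * b) = pw x * (pw y * a) * b := by group
      _ = pw x * (a * pw y) * b := by rw [hc]
      _ = _ := by group

theorem prodMap_inj : Function.Injective prodMap := by
  rw [injective_iff_map_eq_one]
  rintro ⟨x, a⟩ h
  have h1 : pw x * (a : Gq) = 1 := congrArg Subtype.val h
  rcases zmod2_cases' x with hx | hx
  · have h2 : pw x = 1 := by simp [pw, hx]
    rw [h2, one_mul] at h1
    have h3 : a = 1 := Subtype.ext h1
    rw [h3]
    apply Prod.ext
    · exact hx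
    · rfl
  · exfalso
    have h2 : pw x = aa1 := by simp [pw, hx]
    rw [h2] at h1
    have h3 : aa1 = (a : Gq)⁻¹ := eq_inv_of_mul_eq_one_left h1
    exact aa1_notMem (h3 ▸ E1.inv_mem a.2)

theorem card_prod (n : ℕ) (h : Nat.card E1 = n) : Nat.card (Multiplicative (ZMod 2) × E1) = 2 * n := by
  rw [Nat.card_prod, h]
  congr 1
  show Nat.card (ZMod 2) = 2
  simp [ZMod.card]

theorem card_E1 : Nat.card E1 = 512 := by
  have h1 : Nat.card (Multiplicative (ZMod 2) × E1) ≤ Nat.card EE := Nat.card_le_card_of_injective _ prodMap_inj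
  rw [card_prod _ rfl, card_EE] at h1
  have := card_E1_ge
  omega

/-- The direct decomposition. -/
noncomputable def prodEquiv : Multiplicative (ZMod 2) × E1 ≃* EE :=
  MulEquiv.ofBijective prodMap (prodMap_inj.bijective_of_nat_card_le (by rw [card_prod _ card_E1, card_EE]))

/-! ### The stabilizer of a point -/

/-- Elements of the stabilizer of the point. -/
def yNw (i : ℕ) : List ℕ :=
  (if i.testBit 0 then yW.getD 0 [] else []) ++ (if i.testBit 1 then yW.getD 1 [] else []) ++
    (if i.testBit 2 then yW.getD 2 [] else []) ++ (if i.testBit 3 then yW.getD 3 [] else [])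

set_option Elab.async false in
theorem yW_chk : ∀ w ∈ yW, letters w = true ∧ eqB ap bsL (w ++ [0, 2]) ([0, 2] ++ w) = true ∧
    ev ap w p0 = p0 := by decide +kernel

set_option Elab.async false in
theorem yW_P : ∀ w ∈ yW, chkW w [] := by decide +kernel

theorem yW_mem {w : List ℕ} (hw : w ∈ yW) : gv w ∈ EE :=
  mem_EE_of (mem_XX_of (yW_chk w hw).1 (yW_chk w hw).2.1) (Pg_word0 (yW_P w hw))

set_option Elab.async false in
theorem yN_chk : ∀ i : Fin 16, letters (yNw i) = true ∧ ev ap (yNw i) p0 = p0 := by decide +kernel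

/-- The images of a point under the stabilizer. -/
def yVal : Fin 16 → ℕ := ![3, 200, 1905, 316, 1702, 399, 4, 159, 250, 38, 252, 1345, 202, 1521, 314, 18]

set_option Elab.async false in
theorem yN_val : ∀ i : Fin 16, ev ap (yNw i) 3 = yVal i := by decide +kernel

theorem yVal_inj : Function.Injective yVal := by decide

/-- Witnesses of non-commuting. -/
def yWit : Fin 16 → ℕ := ![0, 6, 2, 2, 2, 2, 9, 6, 6, 8, 2, 2, 2, 2, 6, 8]

set_option Elab.async false in
theorem yN_nc0 : ∀ i : Fin 16, i ≠ 0 → eAll.getD (yWit i) [] ∈ eAll ∧ ev ap (yNw i) (ev ap (eAll.getD (yWit i) []) 3) ≠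
    ev ap (eAll.getD (yWit i) []) (yVal i) := by decide +kernel

theorem yNw_zero : yNw 0 = [] := by decide +kernel

theorem yN_mem (i : ℕ) : gv (yNw i) ∈ EE := by
  have h0 : ∀ j, j < 4 → gv (yW.getD j []) ∈ EE := by
    intro j hj
    apply yW_mem
    have : yW.length = 4 := by decide
    rw [List.getD_eq_getElem _ _ (by omega)]
    exact List.getElem_mem _
  have hif : ∀ (b : Bool) (w : List ℕ), gv w ∈ EE → gv (if b = true then w else []) ∈ EE := by
    intro b w hw
    cases b
    · simp [gv_nil, EE.one_mem]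
    · simpa using hw
  rw [yNw, gv_append, gv_append, gv_append]
  exact EE.mul_mem (EE.mul_mem (EE.mul_mem (hif _ _ (h0 0 (by norm_num))) (hif _ _ (h0 1 (by norm_num))))
    (hif _ _ (h0 2 (by norm_num)))) (hif _ _ (h0 3 (by norm_num)))

/-- The stabilizer of the point. -/
noncomputable def Ep : Subgroup Gq := EE ⊓ ptStab Phi [p0]

set_option Elab.async false in
theorem grB : growS wa eAll 1 (2 ^ p0) = B0m := by decide +kernel

set_option Elab.async false in
theorem Bv0_lt : B0m < 2 ^ 2 ^ 12 := by decide +kernel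

set_option Elab.async false in
theorem Bv0_cnt : sumRange B0m.testBit 12 0 = 64 := by decide +kernel

theorem card_Ep_le : Nat.card Ep ≤ 16 := by
  have h1 : 64 * Nat.card Ep ≤ Nat.card EE := by
    refine card_step_gen (Φ := Phi) (b := p0) (M := B0m) (k := 12) ?_ inf_le_left ?_ Bv0_lt Bv0_cnt
    · rw [← grB]
      refine sound_growS ?_ 1 _ (sound_single _ _)
      intro g hg
      exact Subgroup.subset_closure ⟨g, hg, rfl⟩
    · intro x hx
      exact hx.2 p0 (by simp)
  rw [card_EE] at h1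
  omega

/-- The list as a map. -/
noncomputable def yMap (i : Fin 16) : Ep := ⟨gv (yNw i), yN_mem i, by
  intro b hb
  simp only [List.mem_singleton] at hb
  subst hb
  rw [Phi_gv (yN_chk i).1 (by decide)]
  exact (yN_chk i).2⟩

theorem yMap_inj : Function.Injective yMap := by
  intro i k h
  apply yVal_inj
  rw [← yN_val, ← yN_val, ← Phi_gv (yN_chk i).1 (by norm_num), ← Phi_gv (yN_chk k).1 (by norm_num)]
  have h1 : gv (yNw i) = gv (yNw k) := congrArg Subtype.val h
  rw [h1]

theorem yMap_surj : Function.Surjective yMap :=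
  (yMap_inj.bijective_of_nat_card_le (by simpa using card_Ep_le)).2

/-- A central element of `EE` fixing the point is trivial. -/
theorem eq_one_of_central {z : Gq} (hz : z ∈ Ep) (hc : ∀ y ∈ EE, z * y = y * z) : z = 1 := by
  obtain ⟨i, hi⟩ := yMap_surj ⟨z, hz⟩
  have hi' : gv (yNw i) = z := congrArg Subtype.val hi
  by_cases h0 : i = 0
  · subst h0
    rw [← hi']
    show gv (yNw 0) = 1
    rw [yNw_zero, gv_nil]
  · exfalso
    obtain ⟨hw, h2⟩ := yN_nc0 i h0
    set w := eAll.getD (yWit i) [] with hwdef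
    have h1 := eAll_letters w hw
    have hl := (yN_chk i).1
    apply h2
    have h3 : gv (yNw i) * gv w = gv w * gv (yNw i) := by
      rw [hi']
      exact hc _ (Subgroup.subset_closure ⟨w, hw, rfl⟩)
    have h4 := congrArg (fun x => Phi x 3) h3
    simp only [map_mul, Equiv.Perm.mul_apply] at h4
    have hb : ev ap w 3 < 3510 := by
      rw [← Phi_gv h1 (by norm_num)]
      exact bd _ _ (by norm_num)
    have hb2 : ev ap (yNw i) 3 < 3510 := by
      rw [← Phi_gv hl (by norm_num)]
      exact bd _ _ (by norm_num)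
    rw [Phi_gv h1 (by norm_num), Phi_gv hl hb, Phi_gv hl (by norm_num), Phi_gv h1 hb2, yN_val] at h4
    exact h4

/-! ### Fixed points -/

set_option Elab.async false in
theorem F1chk : allR (fun q => !(tb Tm q) || !(Nat.beq (ev ap (yW.getD 0 []) q) q) || !(Nat.beq (ev ap (yW.getD 1 []) q) q) ||
    !(Nat.beq (ev ap (yW.getD 2 []) q) q) || !(Nat.beq (ev ap (yW.getD 3 []) q) q) ||
    Nat.beq q 1 || Nat.beq q 2 || Nat.beq q 13 || Nat.beq q 14) 12 0 = true := by decide +kernel

set_option Elab.async false in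
theorem yW_letters' : ∀ j : Fin 4, letters (yW.getD j []) = true ∧ yW.getD j [] ∈ yW := by decide +kernel

/-- The fixed points of the stabilizer on the blocks. -/
theorem F1 {q : ℕ} (hq : q < 3510) (hT : Tm.testBit q = true) (h : ∀ w ∈ yW, Phi (gv w) q = q) :
    q = 1 ∨ q = 2 ∨ q = 13 ∨ q = 14 := by
  have h3 := allR_spec _ 0 F1chk q (Nat.zero_le _) (by omega)
  have hT' : tb Tm q = true := by rw [tb_eq]; exact hT
  have hf : ∀ j : Fin 4, Nat.beq (ev ap (yW.getD j []) q) q = true := by
    intro j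
    obtain ⟨h1, h2⟩ := yW_letters' j
    have h4 := h _ h2
    rw [Phi_gv h1 hq] at h4
    rw [h4, Nat.beq_refl]
  have h0 := hf 0
  have h1 := hf 1
  have h2 := hf 2
  have h4 := hf 3
  have e0 : ((0 : Fin 4) : ℕ) = 0 := rfl
  have e1 : ((1 : Fin 4) : ℕ) = 1 := rfl
  have e2 : ((2 : Fin 4) : ℕ) = 2 := rfl
  have e3 : ((3 : Fin 4) : ℕ) = 3 := rfl
  rw [e0] at h0
  rw [e1] at h1
  rw [e2] at h2
  rw [e3] at h4
  rw [hT', h0, h1, h2, h4] at h3
  simp only [Bool.not_true, Bool.false_or, Bool.or_eq_true] at h3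
  rcases h3 with ((h3 | h3) | h3) | h3
  · exact Or.inl (beq_true h3)
  · exact Or.inr (Or.inl (beq_true h3))
  · exact Or.inr (Or.inr (Or.inl (beq_true h3)))
  · exact Or.inr (Or.inr (Or.inr (beq_true h3)))

set_option Elab.async false in
theorem vq4 : vq 1 = us 0 ∧ vq 2 = us 0 ∧ vq 13 = us 0 ∧ vq 14 = us 0 := by decide +kernel

set_option Elab.async false in
theorem Tm1 : Tm.testBit 1 = true := by decide +kernel

/-- An element commuting with the stabilizer generators fixes the first root. -/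
theorem fix_us0 {x : XX} (hc : ∀ w ∈ yW, (x : Gq) * gv w = gv w * x) : mt (psi x) *ᵥ us 0 = us 0 := by
  have hP := psi_spec x 1
  have h1 : Tm.testBit (Phi (x : Gq) 1) = true := by rw [hP.1, Tm1]
  have h2 := hP.2 Tm1
  have hq : Phi (x : Gq) 1 < 3510 := bd _ _ (by norm_num)
  have hp0 : ∀ w ∈ yW, Phi (gv w) 1 = 1 := by
    intro w hw
    rw [Phi_gv (yW_chk w hw).1 (by norm_num)]
    exact (yW_chk w hw).2.2
  have h3 := F1 hq h1 (by
    intro w hw
    have := congrArg (fun g => Phi g 1) (hc w hw)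
    simp only [map_mul, Equiv.Perm.mul_apply, hp0 w hw] at this
    exact this.symm)
  rw [vq4.1] at h2
  rw [← h2]
  obtain ⟨a1, a2, a3, a4⟩ := vq4
  rcases h3 with h3 | h3 | h3 | h3 <;> rw [h3] <;> assumption

/-! ### The centre of `EE` -/

theorem Phi_a : Phi aa1 1 = 14 := by
  rw [aa1, Phi_gv (by decide) (by norm_num)]
  decide +kernel

theorem Phi_j : Phi jj 1 = 13 := by
  rw [jj_eq, Phi_gv (by decide) (by norm_num)]
  decide +kernel

theorem Phi_c : Phi (aa1 * jj) 1 = 2 := by
  rw [map_mul, Equiv.Perm.mul_apply, Phi_j, aa1, Phi_gv (by decide) (by norm_num)]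
  decide +kernel

theorem jj_mem : jj ∈ EE := E1_le_EE jj_mem_E1

theorem jj_central {x : Gq} (hx : x ∈ EE) : x * jj = jj * x := mem_XX.1 (EE_le_XX hx)

/-- The centre of `EE`. -/
theorem center_EE {x : Gq} (hx : x ∈ EE) (hc : ∀ y ∈ EE, x * y = y * x) :
    x = 1 ∨ x = aa1 ∨ x = jj ∨ x = aa1 * jj := by
  have hP := EE_Pg hx 1
  have hq : Phi x 1 < 3510 := bd _ _ (by norm_num)
  have h1 : Tm.testBit (Phi x 1) = true := by rw [hP.1, Tm1]
  have hp0 : ∀ w ∈ yW, Phi (gv w) 1 = 1 := by
    intro w hw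
    rw [Phi_gv (yW_chk w hw).1 (by norm_num)]
    exact (yW_chk w hw).2.2
  have h3 := F1 hq h1 (by
    intro w hw
    have := congrArg (fun g => Phi g 1) (hc _ (yW_mem hw))
    simp only [map_mul, Equiv.Perm.mul_apply, hp0 w hw] at this
    exact this.symm)
  -- the central elements of the stabilizer
  have key : ∀ v : Gq, v ∈ EE → (∀ y ∈ EE, v * y = y * v) → Phi v 1 = Phi x 1 → x = v := by
    intro v hv hvc he
    have hz : v⁻¹ * x ∈ Ep := by
      refine ⟨EE.mul_mem (EE.inv_mem hv) hx, ?_⟩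
      intro b hb
      simp only [List.mem_singleton] at hb
      subst hb
      show Phi (v⁻¹ * x) 1 = 1
      rw [map_mul, Equiv.Perm.mul_apply, ← he, map_inv]
      simp
    have h5 := eq_one_of_central hz (by
      intro y hy
      calc v⁻¹ * x * y = v⁻¹ * (y * x) := by rw [mul_assoc, hc y hy]
        _ = (v⁻¹ * y) * x := by group
        _ = y * v⁻¹ * x := by
          congr 1
          have h6 := hvc y hy
          calc v⁻¹ * y = v⁻¹ * (y * v) * v⁻¹ := by group
            _ = v⁻¹ * (v * y) * v⁻¹ := by rw [h6]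
            _ = _ := by group
        _ = _ := by group)
    have h6 : x = v * (v⁻¹ * x) := by group
    rw [h6, h5, mul_one]
  have ca : ∀ y ∈ EE, aa1 * y = y * aa1 := fun y hy => (aa1_central hy).symm
  have cj : ∀ y ∈ EE, jj * y = y * jj := fun y hy => (jj_central hy).symm
  rcases h3 with h3 | h3 | h3 | h3
  · left
    exact key 1 EE.one_mem (by simp) (by simp [h3])
  · right; right; right
    refine key _ (EE.mul_mem aa1_mem jj_mem) ?_ (by rw [Phi_c, h3])
    intro y hy
    calc aa1 * jj * y = aa1 * (y * jj) := by rw [mul_assoc, cj y hy]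
      _ = (aa1 * y) * jj := by group
      _ = y * aa1 * jj := by rw [ca y hy]
      _ = _ := by group
  · right; right; left
    exact key _ jj_mem cj (by rw [Phi_j, h3])
  · right; left
    exact key _ aa1_mem ca (by rw [Phi_a, h3])

/-! ### The hyperplane is extraspecial -/

theorem jj_ne_aa1 : aa1 * jj ∉ E1 := by
  intro h
  have h1 : aa1 = aa1 * jj * jj⁻¹ := by group
  apply aa1_notMem
  rw [h1]
  exact E1.mul_mem h (E1.inv_mem jj_mem_E1)

theorem E1_extra : Cfsg.IsExtraspecial 2 E1 := by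
  have hp : IsPGroup 2 E1 := IsPGroup.of_card (n := 9) (by rw [card_E1]; norm_num)
  have hcs := EE_comm_sq
  refine Cfsg.Agent.Lib.LargeQuot.extraspecial_of_elements hp ⟨jj, jj_mem_E1⟩ ?_ ?_ ?_ ?_ ?_
  · intro h
    exact jj_ne (congrArg Subtype.val h)
  · rintro ⟨a, ha⟩ ⟨b, hb⟩
    rcases mem_Zj.1 (hcs.1 a (E1_le_EE ha) b (E1_le_EE hb)) with h | h
    · left; exact Subtype.ext h
    · right; exact Subtype.ext h
  · rintro ⟨a, ha⟩
    rcases mem_Zj.1 (hcs.2 a (E1_le_EE ha)) with h | h
    · left; exact Subtype.ext h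
    · right; exact Subtype.ext h
  · rintro ⟨a, ha⟩ hc
    have hc' : ∀ y ∈ E1, a * y = y * a := fun y hy => congrArg Subtype.val (hc ⟨y, hy⟩)
    have h1 : ∀ y ∈ EE, a * y = y * a := by
      intro y hy
      induction hy using Subgroup.closure_induction with
      | mem y hy =>
        obtain ⟨w, hw, rfl⟩ := hy
        rcases List.mem_cons.mp hw with rfl | hw'
        · exact (aa1_central (E1_le_EE ha))
        · exact hc' _ (Subgroup.subset_closure ⟨w, hw', rfl⟩)
      | one => simp
      | mul x y _ _ hx hy =>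
        calc a * (x * y) = (a * x) * y := by group
          _ = (x * a) * y := by rw [hx]
          _ = x * (a * y) := by group
          _ = x * (y * a) := by rw [hy]
          _ = _ := by group
      | inv x _ hx =>
        calc a * x⁻¹ = x⁻¹ * (x * a) * x⁻¹ := by group
          _ = x⁻¹ * (a * x) * x⁻¹ := by rw [hx]
          _ = _ := by group
    rcases center_EE (E1_le_EE ha) h1 with h | h | h | h
    · left; exact Subtype.ext h
    · exact absurd (h ▸ ha) aa1_notMem
    · right; exact Subtype.ext h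
    · exact absurd (h ▸ ha) jj_ne_aa1
  · refine ⟨⟨gv (e1L.getD 1 []), Subgroup.subset_closure ⟨_, by decide +kernel, rfl⟩⟩, ⟨gv (e1L.getD 6 []), Subgroup.subset_closure ⟨_, by decide +kernel, rfl⟩⟩, ?_⟩
    intro h
    have h0 : (⟨gv (e1L.getD 1 []), Subgroup.subset_closure ⟨_, by decide +kernel, rfl⟩⟩ : E1) * ⟨gv (e1L.getD 6 []), Subgroup.subset_closure ⟨_, by decide +kernel, rfl⟩⟩ * (⟨gv (e1L.getD 1 []), Subgroup.subset_closure ⟨_, by decide +kernel, rfl⟩⟩ : E1)⁻¹ * (⟨gv (e1L.getD 6 []), Subgroup.subset_closure ⟨_, by decide +kernel, rfl⟩⟩ : E1)⁻¹ = 1 := h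
    have h1 : gv (e1L.getD 1 []) * gv (e1L.getD 6 []) * (gv (e1L.getD 1 []))⁻¹ * (gv (e1L.getD 6 []))⁻¹ = 1 := congrArg Subtype.val h0
    have h2 : gv (e1L.getD 1 []) * gv (e1L.getD 6 []) = gv (e1L.getD 6 []) * gv (e1L.getD 1 []) := by
      have h3 : gv (e1L.getD 1 []) * gv (e1L.getD 6 []) = (gv (e1L.getD 1 []) * gv (e1L.getD 6 []) * (gv (e1L.getD 1 []))⁻¹ * (gv (e1L.getD 6 []))⁻¹) * (gv (e1L.getD 6 []) * gv (e1L.getD 1 [])) := by group
      rw [h3, h1, one_mul]
    rw [← gv_append, ← gv_append] at h2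
    exact gv_ne_of (by decide +kernel) (by decide +kernel) (by decide +kernel) h2

/-! ### Structure of the centralizer -/

/-- The kernel as a 2-group. -/
theorem ker_isP : IsPGroup 2 psi.ker := IsPGroup.of_card (n := 10) (by rw [card_ker_psi]; norm_num)

theorem pCore_eq : Cfsg.pCore 2 XX = psi.ker := by
  haveI : Fact (Nat.Prime 2) := ⟨Nat.prime_two⟩
  apply le_antisymm
  · -- the image is a normal 2-subgroup
    have hn : ((Cfsg.pCore 2 XX).map psi).Normal := Subgroup.Normal.map inferInstance psi psi_surj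
    have hp : IsPGroup 2 ((Cfsg.pCore 2 XX).map psi) :=
      IsPGroup.map (Cfsg.Agent.Lib.PCore.isPGroup_pCore 2) psi
    have h1 := no_normal2 _ hn hp
    intro x hx
    rw [MonoidHom.mem_ker]
    have h2 : psi x ∈ (Cfsg.pCore 2 XX).map psi := ⟨x, hx, rfl⟩
    rw [h1] at h2
    exact Subgroup.mem_bot.mp h2
  · exact Cfsg.Agent.Lib.PCore.le_pCore inferInstance ker_isP

/-- The centralizer of the kernel lies in the kernel. -/
theorem centralizer_ker : Subgroup.centralizer (psi.ker : Set XX) ≤ psi.ker := by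
  intro x hx
  rw [MonoidHom.mem_ker]
  have hy : ∀ (x : XX), x ∈ Subgroup.centralizer (psi.ker : Set XX) → mt (psi x) *ᵥ us 0 = us 0 := by
    intro x hx
    apply fix_us0
    intro w hw
    have hm : gv w ∈ EE := yW_mem hw
    have hm2 : (⟨gv w, EE_le_XX hm⟩ : XX) ∈ psi.ker := by
      rw [← EE_eq_ker]
      exact hm
    have := Subgroup.mem_centralizer_iff.mp hx _ hm2
    exact (congrArg Subtype.val this).symm
  apply eq_of_ns
  intro v hv
  obtain ⟨N, hN⟩ := exists_us0 hv
  obtain ⟨g, hg⟩ := psi_surj N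
  have h1 : g⁻¹ * x * g ∈ Subgroup.centralizer (psi.ker : Set XX) := by
    rw [Subgroup.mem_centralizer_iff]
    intro k hk
    have hk' : g * k * g⁻¹ ∈ psi.ker := (inferInstance : psi.ker.Normal).conj_mem k hk g
    have h2 := Subgroup.mem_centralizer_iff.mp hx _ hk'
    calc k * (g⁻¹ * x * g) = g⁻¹ * ((g * k * g⁻¹) * x) * g := by group
      _ = g⁻¹ * (x * (g * k * g⁻¹)) * g := by rw [h2]
      _ = _ := by group
  have h3 := hy _ h1
  rw [map_mul, map_mul, map_inv, hg, act_mul, act_mul, hN] at h3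
  have h4 := congrArg (fun y => mt N *ᵥ y) h3
  simp only [act_inv', hN] at h4
  rw [h4, mt_one, Matrix.one_mulVec]

/-- The generalized Fitting subgroup of the centralizer. -/
theorem fstar_XX : Cfsg.generalizedFittingSubgroup XX = psi.ker := by
  haveI : Fact (Nat.Prime 2) := ⟨Nat.prime_two⟩
  rw [Cfsg.Agent.Lib.CharTwoLocal.generalizedFitting_eq_pCore (p := 2), pCore_eq]
  rw [pCore_eq]
  exact centralizer_ker

/-- The class of a transposition in a group isomorphic to the presented group. -/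
theorem image_D0 {G : Type*} [Group G] {D : Set G} (hD : Cfsg.IsThreeTranspositionGroup D) (hP : Cfsg.IsPrimitiveUnderConj D)
    {e : Gq ≃* G} (he : e Cfsg.Agent.TcChain36.U62.aa ∈ D) : e '' D0 = D := by
  ext y
  constructor
  · rintro ⟨x, hx, rfl⟩
    obtain ⟨g, hg⟩ := isConj_iff.mp hx
    have := hD.2.1 (e g) _ he
    rw [← hg]
    simpa using this
  · intro hy
    obtain ⟨g, hg⟩ := hP.1 _ he y hy
    refine ⟨e.symm g * Cfsg.Agent.TcChain36.U62.aa * (e.symm g)⁻¹, isConj_iff.mpr ⟨_, rfl⟩, ?_⟩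
    rw [← hg]
    simp

/-- The kernel as a direct product. -/
noncomputable def kerEquiv : psi.ker ≃* Multiplicative (ZMod 2) × E1 :=
  ((MulEquiv.subgroupCongr EE_eq_ker.symm).trans (Subgroup.subgroupOfEquivOfLe EE_le_XX)).trans prodEquiv.symm

theorem main_J2 : (∃ (E : Type) (_ : Group E) (_ : Finite E), Cfsg.IsExtraspecial 2 E ∧ Nat.card E = 2 ^ 9 ∧
      Nonempty (↥(Cfsg.generalizedFittingSubgroup XX) ≃* Multiplicative (ZMod 2) × E)) ∧
    ∀ (hn : (Cfsg.generalizedFittingSubgroup XX).Normal), Nonempty (XX ⧸ Cfsg.generalizedFittingSubgroup XX ≃* O6) := by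
  refine ⟨⟨E1, inferInstance, inferInstance, E1_extra, by rw [card_E1]; norm_num, ⟨?_⟩⟩, fun hn => ⟨?_⟩⟩
  · exact (MulEquiv.subgroupCongr fstar_XX).trans kerEquiv
  · exact (QuotientGroup.quotientMulEquivOfEq fstar_XX).trans (QuotientGroup.quotientKerEquivOfSurjective psi psi_surj)

end Cfsg.Agent.Lib.Fi22J2
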