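import Mathlib
import Cfsg.Agent.Lib.Fi22J2.E0
import Cfsg.Agent.Lib.Fi22J2.AutU

/-!
# The centralizer of the product of two commuting transpositions: the structure of the joint centralizer
-/

set_option autoImplicit false
set_option maxRecDepth 100000
set_option linter.all false

namespace Cfsg.Agent.Lib.Fi22J2

open Cfsg.Agent.Lib.F4K
open Cfsg.Agent.Lib.OutTree36 Cfsg.Agent.Lib.TcBits Cfsg.Agent.Lib.TcPres Cfsg.Agent.Lib.PresChain36
open Cfsg.Agent.Lib.TcFacts (sumRange)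
open Cfsg.Agent.Lib.Fi22K Cfsg.Agent.Lib.PcClass36
open Cfsg.Agent.TcData.Fi22.I3510 Cfsg.Agent.TcData.Fi22 Cfsg.Agent.TcChain36.Fi22 Cfsg.Agent.TcChain36.Out.Fi22

theorem Lt0_sq' : Lt 0 * Lt 0 = 1 := by
  have := aa1_sq
  rwa [aa1_eq] at this

theorem Lt2_eq : Lt 2 = Lt 0 * jj := by
  rw [jj, ← mul_assoc, Lt0_sq', one_mul]

theorem EE_le_K0 : EE ≤ K0 := by
  intro x hx
  rw [mem_K0_iff]
  have h0 := aa1_central hx
  rw [aa1_eq] at h0
  have hj := jj_central hx
  refine ⟨h0, ?_⟩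
  rw [Lt2_eq, ← mul_assoc, h0, mul_assoc, hj, mul_assoc]

theorem ker_le_K0' : psi.ker ≤ K0.subgroupOf XX := by
  rw [← EE_eq_ker]
  intro x hx
  exact EE_le_K0 hx

theorem O6_aut' : Nonempty (O6 ≃* MulAut (Cfsg.PSU 4 K4 2)) := O6_aut ker_le_K0'

/-- The subgroup generated by the two transpositions. -/
noncomputable def V0 : Subgroup Gq := Subgroup.closure {Lt 0, Lt 2}

theorem Lt0_V : Lt 0 ∈ V0 := Subgroup.subset_closure (by simp)
theorem Lt2_V : Lt 2 ∈ V0 := Subgroup.subset_closure (by simp)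
theorem jj_V : jj ∈ V0 := V0.mul_mem Lt0_V Lt2_V

theorem V0_le_K0 : V0 ≤ K0 := by
  rw [V0, Subgroup.closure_le]
  rintro x (rfl | rfl)
  · exact EE_le_K0 (by rw [← aa1_eq]; exact aa1_mem)
  · rw [Lt2_eq]
    have h1 : Lt 0 ∈ EE := by rw [← aa1_eq]; exact aa1_mem
    exact EE_le_K0 (EE.mul_mem h1 jj_mem)

theorem V0_le_EE : V0 ≤ EE := by
  have h1 : Lt 0 ∈ EE := by rw [← aa1_eq]; exact aa1_mem
  rw [V0, Subgroup.closure_le]
  rintro x (rfl | rfl)
  · exact h1
  · rw [Lt2_eq]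
    exact EE.mul_mem h1 jj_mem

theorem Zj_le_V0 : Zj ≤ V0 := by
  intro x hx
  rcases mem_Zj.1 hx with rfl | rfl
  · exact V0.one_mem
  · exact jj_V

theorem V0_central {x y : Gq} (hx : x ∈ V0) (hy : y ∈ K0) : x * y = y * x := by
  rw [mem_K0_iff] at hy
  have h : V0 ≤ Subgroup.centralizer ({y} : Set Gq) := by
    rw [V0, Subgroup.closure_le]
    rintro x (rfl | rfl)
    · simp [Subgroup.mem_centralizer_singleton_iff, hy.1]
    · simp [Subgroup.mem_centralizer_singleton_iff, hy.2]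
  have := h hx
  rw [Subgroup.mem_centralizer_singleton_iff] at this
  exact this

theorem center_K0 {x : Gq} : x ∈ V0 ↔ x ∈ K0 ∧ ∀ y ∈ K0, x * y = y * x := by
  constructor
  · intro hx
    exact ⟨V0_le_K0 hx, fun y hy => V0_central hx hy⟩
  · rintro ⟨hx, hc⟩
    have hX : x ∈ XX := K0_le_XX hx
    have h1 : (⟨x, hX⟩ : XX) ∈ Subgroup.centralizer (psi.ker : Set XX) := by
      rw [Subgroup.mem_centralizer_iff]
      intro y hy
      have hy' : (y : Gq) ∈ EE := by
        have : y ∈ EE.subgroupOf XX := by rw [EE_eq_ker]; exact hy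
        exact this
      apply Subtype.ext
      exact (hc _ (EE_le_K0 hy')).symm
    have h2 := centralizer_ker h1
    have h3 : x ∈ EE := by
      have : (⟨x, hX⟩ : XX) ∈ EE.subgroupOf XX := by rw [EE_eq_ker]; exact h2
      exact this
    rcases center_EE h3 (fun y hy => hc y (EE_le_K0 hy)) with rfl | rfl | rfl | rfl
    · exact V0.one_mem
    · rw [aa1_eq]; exact Lt0_V
    · exact jj_V
    · rw [aa1_eq]; exact V0.mul_mem Lt0_V jj_V

section transport

variable {G : Type*} [Group G] (e : Gq ≃* G) {d₁ d₂ : G} (h1 : e (Lt 0) = d₁) (h2 : e (Lt 2) = d₂)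

include h1 h2

theorem map_K : Subgroup.centralizer ({d₁, d₂} : Set G) = K0.map e.toMonoidHom := by
  ext y
  rw [Subgroup.mem_map_equiv, mem_K0_iff, Subgroup.mem_centralizer_iff]
  constructor
  · intro h
    constructor
    · apply e.injective
      rw [map_mul, map_mul, MulEquiv.apply_symm_apply, h1]
      exact (h d₁ (by simp)).symm
    · apply e.injective
      rw [map_mul, map_mul, MulEquiv.apply_symm_apply, h2]
      exact (h d₂ (by simp)).symm
  · rintro ⟨ha, hb⟩ h hh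
    rcases hh with rfl | hh
    · have := congrArg e ha
      rw [map_mul, map_mul, MulEquiv.apply_symm_apply, h1] at this
      exact this.symm
    · rw [Set.mem_singleton_iff] at hh
      subst hh
      have := congrArg e hb
      rw [map_mul, map_mul, MulEquiv.apply_symm_apply, h2] at this
      exact this.symm

theorem map_C : Subgroup.centralizer ({d₁ * d₂} : Set G) = XX.map e.toMonoidHom := by
  ext y
  rw [Subgroup.mem_map_equiv, mem_XX, Subgroup.mem_centralizer_singleton_iff]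
  have hj : e jj = d₁ * d₂ := by rw [jj, map_mul, h1, h2]
  constructor
  · intro h
    apply e.injective
    rw [map_mul, map_mul, MulEquiv.apply_symm_apply, hj, h]
  · intro h
    have := congrArg e h
    rwa [map_mul, map_mul, MulEquiv.apply_symm_apply, hj] at this

theorem map_V : Subgroup.closure ({d₁, d₂} : Set G) = V0.map e.toMonoidHom := by
  rw [V0, MonoidHom.map_closure, Set.image_pair]
  simp [h1, h2]

omit h1 h2 in
theorem transport_index {A B : Subgroup Gq} (h : (A.subgroupOf B).index = 2) :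
    ((A.map e.toMonoidHom).subgroupOf (B.map e.toMonoidHom)).index = 2 := by
  show Subgroup.relIndex _ _ = 2
  rw [Subgroup.relIndex_map_map_of_injective _ _ e.injective]
  exact h

end transport

theorem main69 {G : Type*} [Group G] (e : Gq ≃* G) {d₁ d₂ : G} (h1 : e (Lt 0) = d₁) (h2 : e (Lt 2) = d₂)
    (K C V : Subgroup G) (hK : K = Subgroup.centralizer ({d₁, d₂} : Set G)) (hC : C = Subgroup.centralizer ({d₁ * d₂} : Set G))
    (hV : V = Subgroup.closure ({d₁, d₂} : Set G)) :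
    K ≤ C ∧ (K.subgroupOf C).index = 2 ∧ (Subgroup.center ↥K).map K.subtype = V ∧ ∃ E : Subgroup G, V ≤ E ∧ E ≤ C ∧
      (∀ c ∈ C, ∀ x ∈ E, c * x * c⁻¹ ∈ E) ∧ Nat.card E = 2 ^ 10 ∧ (∀ x ∈ E, ∀ y ∈ E, x * y * x⁻¹ * y⁻¹ ∈ V ∧ x ^ 2 ∈ V) ∧
      ∃ (_ : (E.subgroupOf C).Normal) (F : Type) (_ : Field F) (_ : Fintype F), Fintype.card F = 4 ∧
        Nonempty (↥C ⧸ E.subgroupOf C ≃* MulAut (Cfsg.PSU 4 F 2)) := by
  classical
  rw [map_K e h1 h2] at hK
  rw [map_C e h1 h2] at hC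
  rw [map_V e h1 h2] at hV
  subst hK hC hV
  have hm {x : G} {A : Subgroup Gq} : x ∈ A.map e.toMonoidHom ↔ ∃ y ∈ A, e y = x := by
    simp [Subgroup.mem_map]
  have hN : ∀ c ∈ XX.map e.toMonoidHom, ∀ x ∈ EE.map e.toMonoidHom, c * x * c⁻¹ ∈ EE.map e.toMonoidHom := by
    intro c hc x hx
    obtain ⟨c0, hc0, rfl⟩ := hm.1 hc
    obtain ⟨x0, hx0, rfl⟩ := hm.1 hx
    refine hm.2 ⟨c0 * x0 * c0⁻¹, ?_, by simp⟩
    have : EE.subgroupOf XX = psi.ker := EE_eq_ker
    have hn : (EE.subgroupOf XX).Normal := by rw [this]; infer_instance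
    have h3 := hn.conj_mem ⟨x0, EE_le_XX hx0⟩ hx0 ⟨c0, hc0⟩
    exact h3
  refine ⟨Subgroup.map_mono K0_le_XX, transport_index e index_K0, ?_, EE.map e.toMonoidHom, Subgroup.map_mono V0_le_EE,
    Subgroup.map_mono EE_le_XX, hN, ?_, ?_, ?_⟩
  · ext x
    constructor
    · rintro ⟨⟨y, hy⟩, hc, rfl⟩
      obtain ⟨y0, hy0, rfl⟩ := hm.1 hy
      refine hm.2 ⟨y0, center_K0.2 ⟨hy0, fun z hz => ?_⟩, rfl⟩
      have h3 := (Subgroup.mem_center_iff.1 hc) ⟨e z, hm.2 ⟨z, hz, rfl⟩⟩
      have h4 : e z * e y0 = e y0 * e z := congrArg Subtype.val h3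
      apply e.injective
      rw [map_mul, map_mul]
      exact h4.symm
    · intro hx
      obtain ⟨x0, hx0, rfl⟩ := hm.1 hx
      have hx1 := center_K0.1 hx0
      refine ⟨⟨e x0, hm.2 ⟨x0, hx1.1, rfl⟩⟩, ?_, rfl⟩
      rw [SetLike.mem_coe, Subgroup.mem_center_iff]
      rintro ⟨y, hy⟩
      obtain ⟨y0, hy0, rfl⟩ := hm.1 hy
      apply Subtype.ext
      show e y0 * e x0 = e x0 * e y0
      rw [← map_mul, ← map_mul, hx1.2 y0 hy0]
  · rw [← Nat.card_congr (EE.equivMapOfInjective e.toMonoidHom e.injective).toEquiv, card_EE]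
    norm_num
  · intro x hx y hy
    obtain ⟨x0, hx0, rfl⟩ := hm.1 hx
    obtain ⟨y0, hy0, rfl⟩ := hm.1 hy
    have h3 := EE_comm_sq.1 x0 hx0 y0 hy0
    have h4 := EE_comm_sq.2 x0 hx0
    constructor
    · exact hm.2 ⟨_, Zj_le_V0 h3, by simp⟩
    · exact hm.2 ⟨_, Zj_le_V0 h4, by simp⟩
  · have hn : ((EE.map e.toMonoidHom).subgroupOf (XX.map e.toMonoidHom)).Normal := ⟨by
      intro n hn g
      rw [Subgroup.mem_subgroupOf] at hn ⊢
      exact hN _ g.2 _ hn⟩
    refine ⟨hn, K4, inferInstance, inferInstance, K4.card_K4, ?_⟩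
    obtain ⟨i⟩ := O6_aut'
    let φ : XX ≃* XX.map e.toMonoidHom := XX.equivMapOfInjective e.toMonoidHom e.injective
    have hk : psi.ker.map φ.toMonoidHom = (EE.map e.toMonoidHom).subgroupOf (XX.map e.toMonoidHom) := by
      rw [← EE_eq_ker]
      ext x
      obtain ⟨y, rfl⟩ := φ.surjective x
      rw [Subgroup.mem_subgroupOf]
      constructor
      · rintro ⟨z, hz, hzy⟩
        have : z = y := φ.injective hzy
        subst this
        exact hm.2 ⟨_, hz, rfl⟩
      · intro h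
        obtain ⟨z, hz, hzy⟩ := hm.1 h
        have : z = (y : Gq) := e.injective hzy
        refine ⟨y, ?_, rfl⟩
        rw [SetLike.mem_coe, Subgroup.mem_subgroupOf, ← this]
        exact hz
    exact ⟨(QuotientGroup.congr _ _ φ hk).symm.trans ((QuotientGroup.quotientKerEquivOfSurjective psi psi_surj).trans i)⟩

end Cfsg.Agent.Lib.Fi22J2
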